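import Cfsg.Agent.Chev.F4Two.Rows

/-!
# The deviations of canonical lifts are powers of one central involution
-/

set_option autoImplicit false
set_option maxRecDepth 100000
set_option maxHeartbeats 0

namespace Cfsg.Agent.Chev.F4Two

/-- All rows. -/
def allRows : List Row := rows0 ++ rows1 ++ rows2 ++ rows3 ++ rows4 ++ rows5 ++ rows6 ++ rows7 ++ rows8 ++ rows9 ++ rows10 ++ rows11 ++ rows12

theorem rowsOK_append {T : ℕ → ℕ → Option (List ℕ)} {sr : ℕ → ℕ → ℕ} {C : ℕ → ℤ} {rk : ℕ → ℕ} :
    ∀ (l : List Row) (k : ℕ) {l' : List Row}, rowsOK T sr C rk k l = true →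
      rowsOK T sr C rk (k + l.length) l' = true → rowsOK T sr C rk k (l ++ l') = true
  | [], k, _, _, h => by simpa using h
  | R :: l, k, l', h, h' => by
    rw [rowsOK, Bool.and_eq_true] at h
    rw [List.cons_append, rowsOK, h.1, Bool.true_and]
    exact rowsOK_append l (k + 1) h.2 (by rw [List.length_cons] at h'; rwa [Nat.add_right_comm])

theorem allRows_ok : rowsOK tT sR cV rK 0 allRows = true := by
  unfold allRows
  refine rowsOK_append _ _ ?_ rows12_ok
  refine rowsOK_append _ _ ?_ rows11_ok
  refine rowsOK_append _ _ ?_ rows10_ok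
  refine rowsOK_append _ _ ?_ rows9_ok
  refine rowsOK_append _ _ ?_ rows8_ok
  refine rowsOK_append _ _ ?_ rows7_ok
  refine rowsOK_append _ _ ?_ rows6_ok
  refine rowsOK_append _ _ ?_ rows5_ok
  refine rowsOK_append _ _ ?_ rows4_ok
  refine rowsOK_append _ _ ?_ rows3_ok
  refine rowsOK_append _ _ ?_ rows2_ok
  refine rowsOK_append _ _ ?_ rows1_ok
  exact rows0_ok

/-- The variables of rank zero are the pairs defining the lifts and the parameter. -/
def rankZeroOK : Bool :=
  (List.range 2544).all fun x => !(Nat.beq (rK x) 0) ||
    (Nat.beq x parVar && decide (cV x = 1)) ||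
    ((gauge.any fun g => Nat.beq x (eVar g.2.1 g.2.2)) && decide (cV x = 0))

theorem rankZero_ok : rankZeroOK = true := by decide +kernel

/-- Every variable of finite rank is determined by a row. -/
def coverOK : Bool :=
  let vs := allRows.map fun R => R.v
  (List.range 2544).all fun x => Nat.beq (rK x) 0 || Nat.beq (rK x) 2047 ||
    Nat.beq (vs.getD (rK x - 1) 9999) x

theorem cover_ok : coverOK = true := by decide +kernel

/-- All relations concern variables of finite rank. -/
def relevantOK : Bool :=
  (List.range 48).all fun b => Nat.ble (rK (qVar b)) 1241 &&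
    (List.range b).all fun a => (tT a b).isNone || Nat.ble (rK (eVar a b)) 1241

theorem relevant_ok : relevantOK = true := by decide +kernel

/-- The closing row. -/
def closeOK : Bool :=
  match closeRow.eqn tT sR with
  | none => false
  | some raw => let l := cancel raw
    l.all (fun p => Nat.ble (rK p.1) 1241) &&
      (decide (total cV l = 2) || decide (total cV l = -2))

theorem close_ok : closeOK = true := by decide +kernel

theorem allRows_length : allRows.length = 1241 := by decide +kernel

/-- The bound for canonical lifts. -/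
theorem deviation_bound {E : Type*} [Group E] (X : Lifts tT sR E)
    (hg : ∀ g ∈ gauge, X.V (eVar g.2.1 g.2.2) = 1) :
    X.V parVar ^ 2 = 1 ∧
      (∀ r < 48, X.V (qVar r) ∈ Subgroup.zpowers (X.V parVar)) ∧
      ∀ b < 48, ∀ a < b, (tT a b).isSome → X.V (eVar a b) ∈ Subgroup.zpowers (X.V parVar) := by
  obtain ⟨d, hd⟩ : ∃ d, d = X.V parVar := ⟨_, rfl⟩
  rw [← hd]
  have hbig : ∀ x, ¬ x < 2544 → rK x = 2047 := fun x hx => by
    rw [rK]
    cases h : Nat.blt x 2544
    · rfl
    · exact absurd (Nat.le_of_ble_eq_true h) hx
  have h0 : ∀ x, rK x = 0 → X.V x = d ^ cV x := by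
    intro x hx
    have hlt : x < 2544 := by
      by_contra h
      rw [hbig x h] at hx
      omega
    have h := rankZero_ok
    simp only [rankZeroOK, List.all_eq_true, List.mem_range, Bool.or_eq_true, Bool.and_eq_true,
      List.any_eq_true, decide_eq_true_eq, Bool.not_eq_true'] at h
    rcases h x hlt with (h | ⟨h, hc⟩) | ⟨⟨g, hgm, h⟩, hc⟩
    · rw [hx] at h; simp at h
    · rw [Nat.eq_of_beq_eq_true h] at hc ⊢
      rw [hc, zpow_one, hd]
    · rw [hc, zpow_zero, Nat.eq_of_beq_eq_true h, hg g hgm]
  have hcov : ∀ x, 0 < rK x → rK x ≤ 0 + allRows.length → ∃ R ∈ allRows, R.v = x := by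
    intro x hx hx'
    rw [allRows_length] at hx'
    have hlt : x < 2544 := by
      by_contra h
      rw [hbig x h] at hx'
      omega
    have h := cover_ok
    simp only [coverOK, List.all_eq_true, List.mem_range, Bool.or_eq_true] at h
    rcases h x hlt with (h | h) | h
    · have := Nat.eq_of_beq_eq_true h; omega
    · have := Nat.eq_of_beq_eq_true h; omega
    · have hi : rK x - 1 < allRows.length := by rw [allRows_length]; omega
      refine ⟨allRows[rK x - 1], List.getElem_mem hi, ?_⟩
      have e := Nat.eq_of_beq_eq_true h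
      rw [List.getD_eq_getElem _ _ (by rw [List.length_map]; exact hi), List.getElem_map] at e
      exact e
  have hall := rows_sound X d h0 allRows 0 allRows_ok (fun x hx => h0 x (Nat.le_zero.1 hx)) hcov
  rw [allRows_length, Nat.zero_add] at hall
  refine ⟨?_, ?_, ?_⟩
  · have h := close_ok
    rw [closeOK] at h
    split at h
    · simp at h
    rename_i raw hl
    simp only [Bool.and_eq_true, List.all_eq_true, Bool.or_eq_true, decide_eq_true_eq] at h
    have hv := val_eq_of_known X (C := cV) d 9999 (cancel raw) fun p hp =>
      Or.inr (hall _ (Nat.le_of_ble_eq_true (h.1 p hp)))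
    have hc : coef 9999 (cancel raw) = 0 := by
      have key : ∀ l : Vec, (∀ p ∈ l, p.1 ≠ 9999) → coef 9999 l = 0 := by
        intro l
        induction l with
        | nil => intro _; rfl
        | cons p l ih =>
          intro hp
          rw [coef, ih fun q hq => hp q (List.mem_cons_of_mem _ hq)]
          cases e : Nat.beq p.1 9999
          · rfl
          · exact absurd (Nat.eq_of_beq_eq_true e) (hp p List.mem_cons_self)
      refine key _ fun p hp e => ?_
      have := Nat.le_of_ble_eq_true (h.1 p hp)
      rw [e, hbig 9999 (by omega)] at this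
      omega
    rw [val_cancel, eqn_sound X closeRow hl, hc, zpow_zero, one_mul, zero_mul, sub_zero] at hv
    rcases h.2 with e | e <;> rw [e] at hv
    · exact_mod_cast hv.symm
    · rw [zpow_neg, eq_comm, inv_eq_one] at hv
      exact_mod_cast hv
  · intro r hr
    have h := relevant_ok
    simp only [relevantOK, List.all_eq_true, List.mem_range, Bool.and_eq_true] at h
    rw [hall _ (Nat.le_of_ble_eq_true (h r hr).1)]
    exact zpow_mem (Subgroup.mem_zpowers d) _
  · intro b hb a ha ht
    have h := relevant_ok
    simp only [relevantOK, List.all_eq_true, List.mem_range, Bool.and_eq_true, Bool.or_eq_true] at h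
    rcases (h b hb).2 a ha with e | e
    · rw [Option.isNone_iff_eq_none] at e
      rw [e] at ht
      simp at ht
    · rw [hall _ (Nat.le_of_ble_eq_true e)]
      exact zpow_mem (Subgroup.mem_zpowers d) _

end Cfsg.Agent.Chev.F4Two
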