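import Cfsg.Agent.Chev.F4Two.Tables
import Cfsg.Agent.Chev.UCE.Main

/-!
# The relations of type F4 over the field with two elements
-/

set_option autoImplicit false
set_option maxRecDepth 100000
set_option maxHeartbeats 0

namespace Cfsg.Agent.Chev.F4Two

open Cfsg.Lie Cfsg.Agent.ChevGrp

/-- The terms with odd coefficient. -/
def oddTerms (a b : ℕ) : List ℕ :=
  ((chevF4.commTerms b a).filter fun c => c.2.1 % 2 != 0).map Prod.fst

/-- The table holds the terms. -/
def tableOK : Bool :=
  (List.range 48).all fun b => (List.range b).all fun a =>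
    bif Nat.beq (chevF4.neg b) a then (tT a b).isNone else decide (tT a b = some (oddTerms a b))

theorem table_ok : tableOK = true := by decide +kernel

theorem neg_ne_self : ∀ r : Fin 48, chevF4.neg r ≠ r.val := by decide +kernel

theorem neg_neg_tab : ∀ r : Fin 48, chevF4.neg (chevF4.neg r) = r.val := by decide +kernel

theorem sR_eq : ∀ (i : Fin 4) (r : Fin 48), sR i r = chevF4.reflectRoot i r := by decide +kernel

theorem tT_spec {a b : ℕ} (hab : a < b) (hb : b < 48) :
    (chevF4.neg b = a ∧ tT a b = none) ∨ (chevF4.neg b ≠ a ∧ tT a b = some (oddTerms a b)) := by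
  have h := table_ok
  simp only [tableOK, List.all_eq_true, List.mem_range] at h
  have h' := h b hb a hab
  cases e : Nat.beq (chevF4.neg b) a
  · rw [e, cond_false, decide_eq_true_eq] at h'
    exact Or.inr ⟨fun hh => by simp [hh] at e, h'⟩
  · rw [e, cond_true, Option.isNone_iff_eq_none] at h'
    exact Or.inl ⟨Nat.eq_of_beq_eq_true e, h'⟩

variable {F : Type*} [Field F]

theorem two_eq_zero [Fintype F] (hF : Fintype.card F = 2) : (2 : F) = 0 := by
  have h := Nat.cast_card_eq_zero F
  rwa [hF, Nat.cast_ofNat] at h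

theorem zero_or_one [Fintype F] (hF : Fintype.card F = 2) (v : F) : v = 0 ∨ v = 1 := by
  have h := FiniteField.pow_card v
  rw [hF] at h
  have h0 : v * (v - 1) = 0 := by linear_combination h
  rcases mul_eq_zero.1 h0 with h | h
  · exact Or.inl h
  · exact Or.inr (sub_eq_zero.1 h)

theorem cast_coeff (h2 : (2 : F) = 0) (C : ℤ) : (C : F) = if C % 2 = 0 then 0 else 1 := by
  have e : (C : F) = ((C % 2 : ℤ) : F) := by
    conv_lhs => rw [← Int.emod_add_mul_ediv C 2]
    push_cast
    rw [h2]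
    ring
  rw [e]
  rcases Int.emod_two_eq_zero_or_one C with h | h <;> simp [h]

theorem neg_one_eq (h2 : (2 : F) = 0) : (-1 : F) = 1 := by linear_combination -h2

variable {G : Type*} [Group G] (S : Sys chevF4 F G) (h2 : (2 : F) = 0) (hS : Rules chevF4 F)
include h2 hS

theorem commWord_prod {r s : ℕ} (hr : r < 48) (hs : s < 48) (h1 : s ≠ r) (h3 : s ≠ chevF4.neg r) :
    ((chevF4.commWord F r s 1 1).map fun p => S.x p.1 p.2).prod =
      ((((chevF4.commTerms r s).filter fun c => c.2.1 % 2 != 0).map Prod.fst).map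
        fun t => S.x t 1).prod := by
  obtain ⟨len, hR⟩ := hS.root
  have hlt : ∀ c ∈ chevF4.commTerms r s, c.1 < chevF4.nroots := fun c hc =>
    (hR.commTerms_vec r hr s hs h1 h3 c hc).1
  rw [ChevalleyDatum.commWord, List.map_map]
  revert hlt
  generalize chevF4.commTerms r s = L
  intro hlt
  induction L with
  | nil => rfl
  | cons c L ih =>
    have ih' := ih fun c' hc' => hlt c' (List.mem_cons_of_mem _ hc')
    rw [List.map_cons, List.prod_cons, ih', List.filter_cons]
    have hc : (S.x c.1 ((c.2.1 : F) * (-1) ^ c.2.2.1 * 1 ^ c.2.2.2) : G) =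
        if c.2.1 % 2 != 0 then S.x c.1 1 else 1 := by
      rw [cast_coeff h2, neg_one_eq h2, one_pow, one_pow, mul_one, mul_one]
      by_cases hz : c.2.1 % 2 = 0
      · simp [hz, S.x_zero (hlt c List.mem_cons_self)]
      · simp [hz]
    simp only [Function.comp_apply]
    rw [hc]
    by_cases hz : c.2.1 % 2 = 0 <;> simp [hz]

theorem x_rel {a b : ℕ} (hab : a < b) (hb : b < 48) {t : List ℕ} (ht : tT a b = some t) :
    S.x a 1 * S.x b 1 = S.x b 1 * S.x a 1 * (t.map fun k => S.x k 1).prod := by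
  rcases tT_spec hab hb with ⟨-, h⟩ | ⟨hn, h⟩
  · rw [h] at ht; simp at ht
  rw [h] at ht
  cases ht
  rw [S.comm b hb a (lt_trans hab hb) hab.ne (fun e => hn e.symm) 1 1,
    commWord_prod S h2 hS hb (lt_trans hab hb) hab.ne (fun e => hn e.symm)]
  rfl

theorem x_sq {a : ℕ} (ha : a < 48) : S.x a 1 * S.x a 1 = 1 := by
  rw [S.x_add a ha, show (1 : F) + 1 = 0 by linear_combination h2, S.x_zero ha]

theorem x_conj {i r : ℕ} (hi : i < 4) (hr : r < 48) :
    S.nI ⟨i, hi⟩ * S.x r 1 * (S.nI ⟨i, hi⟩)⁻¹ = S.x (sR i r) 1 := by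
  obtain ⟨len, hR⟩ := hS.root
  rw [UCE.eta_cast validF4 hS hR S ⟨i, hi⟩ hr 1]
  rw [sR_eq ⟨i, hi⟩ ⟨r, hr⟩, mul_one]
  congr 1
  rw [Cert.eta]
  split
  · push_cast; exact neg_one_eq h2
  · simp

end Cfsg.Agent.Chev.F4Two
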