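import Cfsg.Agent.Chev.F4Two.RepCheck
import Cfsg.Agent.Chev.F4Two.Facts

/-!
# A double cover of the presented group of type F4 over two elements

Matrices of degree 52 over three elements satisfy the relations up to sign.
-/

set_option autoImplicit false
set_option maxRecDepth 100000
set_option maxHeartbeats 0

namespace Cfsg.Agent.Chev.F4Two

open Code

/-- The matrix of a generator. -/
def gMat (r : ℕ) : Mt := if r < 48 then toMat (cols r) else 1

theorem colsOK_cols {r : ℕ} (hr : r < 48) : colsOK (cols r) = true := by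
  have h := colsAll_ok
  simp only [colsAllOK, List.all_eq_true, List.mem_range] at h
  exact h r hr

theorem wordFrom_eq : ∀ (w : List ℕ) (M : Mt), (∀ r ∈ w, r < 48) →
    wordFrom (encM M) w = encM (M * (w.map gMat).prod)
  | [], M, _ => by rw [wordFrom, List.map_nil, List.prod_nil, mul_one]
  | r :: w, M, h => by
    have hr := h r List.mem_cons_self
    rw [wordFrom, mulCode_eq M (colsOK_cols hr), wordFrom_eq w _ fun x hx => h x (List.mem_cons_of_mem _ hx),
      List.map_cons, List.prod_cons, gMat, if_pos hr, mul_assoc]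

theorem wordCode_eq {w : List ℕ} (h : ∀ r ∈ w, r < 48) : wordCode w = encM (w.map gMat).prod := by
  rw [wordCode, ← encM_one, wordFrom_eq w 1 h, one_mul]

theorem gMat_sq (r : ℕ) : gMat r * gMat r = 1 := by
  by_cases hr : r < 48
  · have h := inv_ok
    simp only [invOK, List.all_eq_true, List.mem_range] at h
    have h' := Nat.eq_of_beq_eq_true (h r hr)
    rw [wordCode_eq (by simp [hr]), ← encM_one] at h'
    simpa using encM_injective h'
  · rw [gMat, if_neg hr, mul_one]

/-- The generator as a unit. -/
def gU (r : ℕ) : Mtˣ := ⟨gMat r, gMat r, gMat_sq r, gMat_sq r⟩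

theorem val_prod_gU (w : List ℕ) : (((w.map gU).prod : Mtˣ) : Mt) = (w.map gMat).prod := by
  induction w with
  | nil => rfl
  | cons r w ih => rw [List.map_cons, List.prod_cons, Units.val_mul, ih, List.map_cons, List.prod_cons]; rfl

theorem val_gU (r : ℕ) : ((gU r : Mtˣ) : Mt) = gMat r := rfl

theorem gU_sq (r : ℕ) : gU r * gU r = 1 := Units.ext (gMat_sq r)

theorem simp4_lt (i : Fin 4) : simp4 i < 48 ∧ nsimp4 i < 48 := by
  revert i
  decide +kernel

/-- The reflecting element. -/
def nU (i : ℕ) : Mtˣ := gU (simp4 i) * gU (nsimp4 i) * gU (simp4 i)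

theorem sR_lt48 : ∀ (i : Fin 4) (r : Fin 48), sR i r < 48 := by decide +kernel

theorem conj_gU {i r : ℕ} (hi : i < 4) (hr : r < 48) : MulAut.conj (nU i) (gU r) = gU (sR i r) := by
  have hall : conjOK i = true := by
    interval_cases i
    exacts [conj0_ok, conj1_ok, conj2_ok, conj3_ok]
  simp only [conjOK, List.all_eq_true, List.mem_range] at hall
  have h := Nat.eq_of_beq_eq_true (hall r hr)
  obtain ⟨h1, h2⟩ := simp4_lt ⟨i, hi⟩
  have h3 := sR_lt48 ⟨i, hi⟩ ⟨r, hr⟩
  have hn : ∀ x ∈ nWd i, x < 48 := by
    intro x hx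
    simp only [nWd, List.mem_cons, List.not_mem_nil, or_false] at hx
    rcases hx with rfl | rfl | rfl
    exacts [h1, h2, h1]
  rw [wordCode_eq hn, mulCode_eq _ (colsOK_cols hr),
    wordCode_eq (fun x hx => (List.mem_cons.1 hx).elim (fun e => e ▸ h3) (hn x))] at h
  have h' := encM_injective h
  rw [MulAut.conj_apply, mul_inv_eq_iff_eq_mul]
  refine Units.ext ?_
  simp only [nU, nWd, List.map_cons, List.map_nil, List.prod_cons, List.prod_nil, mul_one] at h' ⊢
  simp only [Units.val_mul]
  show gMat (simp4 i) * gMat (nsimp4 i) * gMat (simp4 i) * gMat r =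
    gMat (sR i r) * (gMat (simp4 i) * gMat (nsimp4 i) * gMat (simp4 i))
  rw [show toMat (cols r) = gMat r by rw [gMat, if_pos hr]] at h'
  simpa [mul_assoc] using h'

/-- The sign of a relation. -/
def sgn (t : List ℕ) : Mtˣ := if t.length = 2 then -1 else 1

theorem sgn_sq (t : List ℕ) : sgn t * sgn t = 1 := by
  rw [sgn]; split <;> simp

theorem sgn_comm (t : List ℕ) (g : Mtˣ) : sgn t * g = g * sgn t := by
  rw [sgn]; split <;> simp

theorem map_sgn (φ : MulAut Mtˣ) (hφ : φ (-1) = -1) (t : List ℕ) : φ (sgn t) = sgn t := by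
  rw [sgn]; split <;> simp [hφ]

/-- The relation of a pair. -/
def GoodPair (a b : ℕ) : Prop :=
  ∀ t, tT a b = some t → gU a * gU b = sgn t * (gU b * gU a * (t.map gU).prod)

/-- The depth of a pair. -/
def depth (a b : ℕ) : ℕ := slot tabD 6 (Nat.add (Nat.mul 48 a) b)

/-- The parent of a pair: two roots and a reflection. -/
def parentOf (a b : ℕ) : ℕ × ℕ × ℕ :=
  let p := slot tabP 14 (Nat.add (Nat.mul 48 a) b)
  (Nat.mod p 64, Nat.mod (Nat.div p 64) 64, Nat.div p 4096)

/-- The checks of the forest on one pair. -/
def pairForestOK (a b : ℕ) : Bool :=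
  match tT a b with
  | none => true
  | some t =>
    t.all (fun x => Nat.blt x 48) && Nat.ble t.length 2 &&
    (match t with
      | [x, y] => (Nat.blt x y && decide (tT x y = some []) && Nat.blt y 48) ||
          (Nat.blt y x && decide (tT y x = some []) && Nat.blt x 48)
      | _ => true) &&
    bif Nat.beq (depth a b) 0 then roots.contains (a, b) else
      let p := parentOf a b
      Nat.blt p.1 p.2.1 && Nat.blt p.2.1 48 && Nat.blt p.2.2 4 &&
        Nat.blt (depth p.1 p.2.1) (depth a b) &&
        ((Nat.beq (sR p.2.2 p.1) a && Nat.beq (sR p.2.2 p.2.1) b) ||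
          (Nat.beq (sR p.2.2 p.1) b && Nat.beq (sR p.2.2 p.2.1) a)) &&
        match tT p.1 p.2.1 with
        | none => false
        | some t' => decide (t'.map (sR p.2.2) = t) ||
            (Nat.beq t.length 2 && decide ((t'.map (sR p.2.2)).reverse = t))

/-- The checks of the forest. -/
def forestOK : Bool := (List.range 48).all fun b => (List.range b).all fun a => pairForestOK a b

theorem forest_ok : forestOK = true := by decide +kernel

theorem pairForest {a b : ℕ} (hab : a < b) (hb : b < 48) : pairForestOK a b = true := by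
  have h := forest_ok
  simp only [forestOK, List.all_eq_true, List.mem_range] at h
  exact h b hb a hab

theorem root_pair {a b : ℕ} (hab : a < b) (hb : b < 48) (h : roots.contains (a, b) = true) :
    GoodPair a b := by
  intro t ht
  have hr := roots_ok
  simp only [rootsOK, List.all_eq_true] at hr
  have h' := hr (a, b) (List.contains_iff_mem.1 h)
  simp only [relCodeOK, ht] at h'
  have hf := pairForest hab hb
  simp only [pairForestOK, ht, Bool.and_eq_true, List.all_eq_true] at hf
  have hall : ∀ x ∈ [b, a] ++ t, x < 48 := by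
    intro x hx
    rcases List.mem_append.1 hx with hx | hx
    · simp only [List.mem_cons, List.not_mem_nil, or_false] at hx
      rcases hx with rfl | rfl
      exacts [hb, lt_trans hab hb]
    · exact Nat.le_of_ble_eq_true (hf.1.1.1 x hx)
  have h'' := Nat.eq_of_beq_eq_true h'
  rw [wordCode_eq (by simp [hb, lt_trans hab hb]), wordCode_eq hall] at h''
  refine Units.ext ?_
  rw [Units.val_mul]
  cases hl : Nat.beq t.length 2
  · rw [hl, cond_false] at h''
    have hne : t.length ≠ 2 := fun e => by simp [e] at hl
    rw [sgn, if_neg hne, one_mul, Units.val_mul, Units.val_mul, val_prod_gU]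
    simpa [mul_assoc, val_gU] using encM_injective h''
  · rw [hl, cond_true, negCode_eq] at h''
    rw [sgn, if_pos (Nat.eq_of_beq_eq_true hl), neg_one_mul, Units.val_neg, Units.val_mul,
      Units.val_mul, val_prod_gU]
    simpa [mul_assoc, val_gU] using encM_injective h''

theorem prod_sq : ∀ t : List ℕ, t.length ≤ 2 → (∀ x y, t = [x, y] → gU x * gU y = gU y * gU x) →
    (t.map gU).prod * (t.map gU).prod = 1
  | [], _, _ => by simp
  | [p], _, _ => by simp [gU_sq]
  | [p, q], _, hcomm => by
    have hc := hcomm p q rfl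
    simp only [List.map_cons, List.map_nil, List.prod_cons, List.prod_nil, mul_one]
    calc gU p * gU q * (gU p * gU q) = gU p * gU q * (gU q * gU p) := by rw [hc]
      _ = gU p * (gU q * gU q) * gU p := by group
      _ = 1 := by rw [gU_sq, mul_one, gU_sq]
  | _ :: _ :: _ :: _, h, _ => by simp at h

theorem child_pair {a b : ℕ} (hab : a < b) (hb : b < 48) {t : List ℕ} (ht : tT a b = some t)
    (hd : depth a b ≠ 0)
    (hcomm : ∀ x y, t = [x, y] → gU x * gU y = gU y * gU x)
    (ih : ∀ x y t', x < y → y < 48 → depth x y < depth a b → tT x y = some t' → t'.length = t.length →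
      GoodPair x y) :
    gU a * gU b = sgn t * (gU b * gU a * (t.map gU).prod) := by
  have hf := pairForest hab hb
  simp only [pairForestOK, ht, Bool.and_eq_true] at hf
  obtain ⟨⟨⟨-, hlen⟩, -⟩, hf⟩ := hf
  have hd' : Nat.beq (depth a b) 0 = false := by
    cases e : Nat.beq (depth a b) 0
    · rfl
    · exact absurd (Nat.eq_of_beq_eq_true e) hd
  rw [hd', cond_false] at hf
  simp only [Bool.and_eq_true, Bool.or_eq_true] at hf
  obtain ⟨⟨⟨⟨⟨h1, h2⟩, h3⟩, h4⟩, hmap⟩, hT⟩ := hf
  obtain ⟨x, y, i, he⟩ : ∃ x y i, parentOf a b = (x, y, i) := ⟨_, _, _, rfl⟩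
  simp only [he] at h1 h2 h3 h4 hmap hT
  cases ht' : tT x y with
  | none => simp [ht'] at hT
  | some t' =>
    simp only [ht', Bool.or_eq_true, Bool.and_eq_true, decide_eq_true_eq] at hT
    have hi : i < 4 := Nat.le_of_ble_eq_true h3
    have hxy : x < y := Nat.le_of_ble_eq_true h1
    have hy : y < 48 := Nat.le_of_ble_eq_true h2
    have hl : t'.length = t.length := by
      rcases hT with e | ⟨-, e⟩ <;> simp [← e]
    have hP := ih x y t' hxy hy (Nat.le_of_ble_eq_true h4) ht' hl t' ht'
    have hf' := pairForest hxy hy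
    simp only [pairForestOK, ht', Bool.and_eq_true, List.all_eq_true] at hf'
    -- the image of the relation
    have e1 := congrArg (MulAut.conj (nU i)) hP
    have hneg : MulAut.conj (nU i) (-1) = -1 := by simp
    simp only [map_mul, map_sgn _ hneg, map_list_prod, List.map_map,
      conj_gU hi (lt_trans hxy hy), conj_gU hi hy] at e1
    have hm : t'.map (MulAut.conj (nU i) ∘ gU) = (t'.map (sR i)).map gU := by
      rw [List.map_map]
      exact List.map_congr_left fun z hz => conj_gU hi (Nat.le_of_ble_eq_true (hf'.1.1.1 z hz))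
    rw [hm, show sgn t' = sgn t by rw [sgn, sgn, hl]] at e1
    have hprod : ((t'.map (sR i)).map gU).prod = (t.map gU).prod := by
      rcases hT with e | ⟨h2', e⟩
      · rw [e]
      · have hlen2 : (t'.map (sR i)).length = 2 := by
          rw [List.length_map, hl]; exact Nat.eq_of_beq_eq_true h2'
        match hu : t'.map (sR i), hlen2 with
        | [p, q], _ =>
          rw [hu] at e
          simp only [List.reverse_cons, List.reverse_nil, List.nil_append, List.singleton_append] at e
          rw [← e]
          simpa using (hcomm q p e.symm).symm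
    have hinv : (t.map gU).prod * (t.map gU).prod = 1 :=
      prod_sq t (Nat.le_of_ble_eq_true hlen) hcomm
    rw [hprod] at e1
    rcases hmap with ⟨ha, hb'⟩ | ⟨ha, hb'⟩
    · rw [Nat.eq_of_beq_eq_true ha, Nat.eq_of_beq_eq_true hb'] at e1
      exact e1
    · rw [Nat.eq_of_beq_eq_true ha, Nat.eq_of_beq_eq_true hb'] at e1
      symm
      calc sgn t * (gU b * gU a * (t.map gU).prod)
          = sgn t * sgn t * (gU a * gU b * ((t.map gU).prod * (t.map gU).prod)) := by
            rw [e1]; simp only [mul_assoc]
        _ = gU a * gU b := by rw [sgn_sq, hinv, one_mul, mul_one]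

theorem comm_pairs : ∀ (d a b : ℕ), a < b → b < 48 → depth a b < d → tT a b = some [] → GoodPair a b
  | 0, _, _, _, _, h, _ => absurd h (Nat.not_lt_zero _)
  | d + 1, a, b, hab, hb, hd, ht => by
    by_cases h0 : depth a b = 0
    · have hf := pairForest hab hb
      simp only [pairForestOK, ht, Bool.and_eq_true, h0] at hf
      exact root_pair hab hb hf.2
    · intro t ht'
      refine child_pair hab hb ht' h0 (fun x y e => ?_) fun x y t' hxy hy hlt hT hl => ?_
      · rw [ht] at ht'; cases ht'; simp at e
      · rw [ht] at ht'; cases ht'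
        rw [List.length_nil, List.length_eq_zero_iff] at hl
        subst hl
        exact comm_pairs d x y hxy hy (by omega) hT

theorem good_pairs : ∀ (d a b : ℕ), a < b → b < 48 → depth a b < d → GoodPair a b
  | 0, _, _, _, _, h => absurd h (Nat.not_lt_zero _)
  | d + 1, a, b, hab, hb, hd => by
    intro t ht
    have hf := pairForest hab hb
    simp only [pairForestOK, ht, Bool.and_eq_true] at hf
    by_cases h0 : depth a b = 0
    · simp only [h0] at hf
      exact root_pair hab hb hf.2 t ht
    · refine child_pair hab hb ht h0 (fun x y e => ?_) fun x y t' hxy hy hlt _ _ =>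
        good_pairs d x y hxy hy (by omega)
      subst e
      have h2 := hf.1.2
      simp only [Bool.or_eq_true, Bool.and_eq_true, decide_eq_true_eq] at h2
      rcases h2 with ⟨⟨h3, h4⟩, h5⟩ | ⟨⟨h3, h4⟩, h5⟩
      · have := comm_pairs (depth x y + 1) x y (Nat.le_of_ble_eq_true h3) (Nat.le_of_ble_eq_true h5)
          (Nat.lt_succ_self _) h4 [] h4
        simpa [sgn] using this
      · have := comm_pairs (depth y x + 1) y x (Nat.le_of_ble_eq_true h3) (Nat.le_of_ble_eq_true h5)
          (Nat.lt_succ_self _) h4 [] h4
        simpa [sgn] using this.symm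

theorem gU_rel {a b : ℕ} (hab : a < b) (hb : b < 48) {t : List ℕ} (ht : tT a b = some t) :
    gU a * gU b = sgn t * (gU b * gU a * (t.map gU).prod) :=
  good_pairs _ a b hab hb (Nat.lt_succ_self _) t ht

theorem neg_one_ne_one : (-1 : Mtˣ) ≠ 1 := fun h => by
  have h' := congrFun (congrFun (congrArg (Units.val : Mtˣ → Mt) h) 0) 0
  simp at h'
  exact absurd h' (by decide)

/-- A generator is not a sign. -/
def gen0OK : Bool :=
  !(Nat.beq (wordCode [33]) oneCode) && !(Nat.beq (wordCode [33]) (negCode oneCode))

theorem gen0_ok : gen0OK = true := by decide +kernel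

theorem gen0_ne : gU 33 ≠ 1 ∧ gU 33 ≠ -1 := by
  have h := gen0_ok
  simp only [gen0OK, Bool.and_eq_true, Bool.not_eq_true'] at h
  constructor <;> intro e
  · have e' : wordCode [33] = oneCode := by
      rw [wordCode_eq (by simp), ← encM_one, ← val_prod_gU]
      simp [e]
    simp [e'] at h
  · have e' : wordCode [33] = negCode oneCode := by
      rw [wordCode_eq (by simp), ← encM_one, negCode_eq, ← val_prod_gU]
      simp [e]
    simp [e'] at h

end Cfsg.Agent.Chev.F4Two
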