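import Cfsg.Agent.Chev.F4Two.Upper
import Cfsg.Agent.Chev.F4Two.Rep
import Cfsg.Agent.ChevGrp.Simple

/-!
# The Schur multiplier of F4 over two elements
-/

set_option autoImplicit false
set_option maxRecDepth 100000
set_option linter.style.haveILetI false

namespace Cfsg.Agent.Chev.F4Two

open Cfsg.Lie Cfsg.Agent.ChevGrp Cfsg.Agent.CentralExt
open Cfsg.Agent.CentralExt.Laced (IsCentralMap)

universe u v

section General

variable {D : ChevalleyDatum} {F : Type u} [Field F]

/-- The mapping property of the group presented by (R1), (R2). -/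
theorem exists_hom_of_rels (hS : Rules D F) {Q : Type v} [Group Q] (x : ℕ → F → Q)
    (hadd : ∀ r < D.nroots, ∀ t u, x r t * x r u = x r (t + u))
    (hcomm : ∀ r < D.nroots, ∀ s < D.nroots, s ≠ r → s ≠ D.neg r → ∀ t u : F,
      x s u * x r t = x r t * x s u * ((D.commWord F r s t u).map fun p => x p.1 p.2).prod) :
    ∃ φ : D.SteinbergCover F →* Q, ∀ r < D.nroots, ∀ t, φ (D.scGen F r t) = x r t := by
  classical
  obtain ⟨len, hR⟩ := hS.root
  set f : Fin D.nroots × F → Q := fun p => x p.1 p.2 with hf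
  set g : ℕ → F → Q := fun r t => if r < D.nroots then x r t else 1 with hg
  have hX : ∀ (r : ℕ) (t : F), FreeGroup.lift f (D.stX r t) = g r t := by
    intro r t
    by_cases hr : r < D.nroots
    · simp [hg, hr, ChevalleyDatum.stX, hf]
    · simp [hg, hr, ChevalleyDatum.stX]
  have hkill : ∀ z ∈ D.steinbergRelsAB F, FreeGroup.lift f z = 1 := by
    rintro z (⟨r, t₁, t₂, hr, rfl⟩ | ⟨r, s, t, u, hr, hs, h1, h2, rfl⟩)
    · simp only [map_mul, map_inv, hX, hg, hr, if_true]
      exact mul_inv_eq_one.2 (hadd r hr t₁ t₂)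
    · simp only [map_mul, map_inv, hX, stWord_lift _ _ hX]
      have e : ((D.commWord F r s t u).map fun p => g p.1 p.2).prod =
          ((D.commWord F r s t u).map fun p => x p.1 p.2).prod := by
        refine congrArg List.prod (List.map_congr_left fun p hp => ?_)
        simp only [ChevalleyDatum.commWord, List.mem_map] at hp
        obtain ⟨c, hc', rfl⟩ := hp
        simp [hg, (hR.commTerms_vec r hr s hs h1 h2 c hc').1]
      rw [e]
      simp only [hg, hr, hs, if_true]
      rw [mul_inv_eq_one, mul_assoc, mul_assoc, hcomm r hr s hs h1 h2 t u]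
      simp [mul_assoc]
  refine ⟨PresentedGroup.toGroup hkill, fun r hr t => ?_⟩
  simp only [ChevalleyDatum.scGen, ChevalleyDatum.stX, dif_pos hr]
  exact PresentedGroup.toGroup.of _

end General

variable {F : Type u} [Field F] [Fintype F]

/-- Relations in pairs `a < b` give all the relations over two elements. -/
theorem rels_of_table (hF : Fintype.card F = 2) (hS : Rules chevF4 F) {Q : Type v} [Group Q]
    (y : ℕ → Q) (hsq : ∀ r < 48, y r * y r = 1)
    (hrel : ∀ a b t, a < b → b < 48 → tT a b = some t → y a * y b = y b * y a * (t.map y).prod)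
    (x : ℕ → F → Q) (hx0 : ∀ r, x r 0 = 1) (hx1 : ∀ r, x r 1 = y r) :
    (∀ r < chevF4.nroots, ∀ t u, x r t * x r u = x r (t + u)) ∧
      ∀ r < chevF4.nroots, ∀ s < chevF4.nroots, s ≠ r → s ≠ chevF4.neg r → ∀ t u : F,
        x s u * x r t = x r t * x s u * ((chevF4.commWord F r s t u).map fun p => x p.1 p.2).prod := by
  classical
  have h2 := two_eq_zero hF
  have h01 := zero_or_one hF
  obtain ⟨len, hR⟩ := hS.root
  have h11 : (1 : F) + 1 = 0 := by linear_combination h2
  have hword0 : ∀ r s, r < 48 → s < 48 → s ≠ r → s ≠ chevF4.neg r → ∀ t u : F, (t = 0 ∨ u = 0) →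
      ((chevF4.commWord F r s t u).map fun p => x p.1 p.2).prod = 1 := by
    intro r s hr hs h1 h3 t u htu
    refine List.prod_eq_one fun g hg' => ?_
    simp only [ChevalleyDatum.commWord, List.map_map, List.mem_map, Function.comp_apply] at hg'
    obtain ⟨c, hc, rfl⟩ := hg'
    obtain ⟨-, hi, hj, -⟩ := hR.commTerms_vec r hr s hs h1 h3 c hc
    rcases htu with rfl | rfl
    · rw [neg_zero, zero_pow hi.ne', mul_zero, zero_mul, hx0]
    · rw [zero_pow hj.ne', mul_zero, hx0]
  have hword1 : ∀ r s, ((chevF4.commWord F r s 1 1).map fun p => x p.1 p.2).prod =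
      ((oddTerms s r).map y).prod := by
    intro r s
    rw [ChevalleyDatum.commWord, List.map_map, oddTerms]
    generalize chevF4.commTerms r s = L
    induction L with
    | nil => rfl
    | cons c L ih =>
      rw [List.map_cons, List.prod_cons, ih, List.filter_cons]
      simp only [Function.comp_apply]
      rw [cast_coeff h2, neg_one_eq h2, one_pow, one_pow, mul_one, mul_one]
      by_cases hz : c.2.1 % 2 = 0 <;> simp [hz, hx0, hx1]
  refine ⟨fun r hr t u => ?_, fun r hr s hs h1 h3 t u => ?_⟩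
  · rcases h01 t with rfl | rfl <;> rcases h01 u with rfl | rfl <;> simp [hx0, hx1, h11, hsq r hr]
  · rcases h01 t with rfl | rfl
    · rw [hword0 r s hr hs h1 h3 0 u (Or.inl rfl)]
      simp [hx0]
    rcases h01 u with rfl | rfl
    · rw [hword0 r s hr hs h1 h3 1 0 (Or.inr rfl)]
      simp [hx0]
    rw [hword1, hx1, hx1]
    rcases Nat.lt_or_gt_of_ne h1 with hlt | hlt
    · rcases tT_spec hlt hr with ⟨hn', -⟩ | ⟨-, ht⟩
      · exact absurd hn'.symm h3
      · exact hrel s r _ hlt hr ht
    · have hnn : chevF4.neg s ≠ r := fun e => h3 (by rw [← e, neg_neg_tab ⟨s, hs⟩])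
      rcases tT_spec hlt hs with ⟨hn', -⟩ | ⟨-, ht⟩
      · exact absurd hn' hnn
      have hsy := symm_ok
      simp only [symmOK, List.all_eq_true, List.mem_range] at hsy
      have hsy' := hsy s hs r hlt
      cases hnb : Nat.beq (chevF4.neg s) r
      swap
      · exact absurd (Nat.eq_of_beq_eq_true hnb) hnn
      rw [hnb, cond_false, Bool.and_eq_true, decide_eq_true_eq] at hsy'
      rw [hsy'.1]
      have hi : ((oddTerms r s).map y).prod * ((oddTerms r s).map y).prod = 1 := by
        have hm := hsy'.2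
        have hb : ∀ k ∈ oddTerms r s, k < 48 := by
          intro k hk'
          simp only [oddTerms, List.mem_map, List.mem_filter] at hk'
          obtain ⟨c, ⟨hc, -⟩, rfl⟩ := hk'
          exact (hR.commTerms_vec s hs r hr h1.symm (fun e => hnn e.symm) c hc).1
        revert hm hb
        generalize oddTerms r s = W
        intro hm hb
        match W, hm with
        | [], _ => simp
        | [a], _ => simp [hsq a (hb a (by simp))]
        | [a, b], hm =>
          have hcm : y a * y b = y b * y a := by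
            simp only [Bool.or_eq_true, Bool.and_eq_true, decide_eq_true_eq] at hm
            rcases hm with ⟨⟨hab, hT⟩, hb'⟩ | ⟨⟨hab, hT⟩, hb'⟩
            · simpa using hrel a b [] (Nat.le_of_ble_eq_true hab) (Nat.le_of_ble_eq_true hb') hT
            · simpa using (hrel b a [] (Nat.le_of_ble_eq_true hab) (Nat.le_of_ble_eq_true hb') hT).symm
          simp only [List.map_cons, List.map_nil, List.prod_cons, List.prod_nil, mul_one]
          calc y a * y b * (y a * y b) = y a * y b * (y b * y a) := by rw [hcm]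
            _ = y a * (y b * y b) * y a := by group
            _ = 1 := by rw [hsq b (hb b (by simp)), mul_one, hsq a (hb a (by simp))]
        | _ :: _ :: _ :: _, hm => simp at hm
      rw [hrel r s _ hlt hs ht, mul_assoc, hi, mul_one]

/-- The kernel of a stem extension has order at most two and is cyclic. -/
theorem stem_bound (hF : Fintype.card F = 2) {E : Type v} [Group E]
    {π : E →* chevF4.SteinbergCover F} (hπ : Cfsg.IsStemExtension π) :
    ∃ d : Subgroup.center E, d ^ 2 = 1 ∧ π.ker = Subgroup.zpowers (d : E) := by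
  have hS : Rules chevF4 F := rules_of_mem F (by simp)
  have h2 := two_eq_zero hF
  obtain ⟨d, hd2, hdπ, hT⟩ := exists_sys_mod (Cover.scSys hS) π hπ.1 hπ.2.1 h2 hS hF
  have hle : Subgroup.zpowers (d : E) ≤ π.ker := Subgroup.zpowers_le.2 (MonoidHom.mem_ker.2 hdπ)
  haveI hn : (Subgroup.zpowers (d : E)).Normal :=
    ⟨fun x hx g => by
      have := Subgroup.mem_center_iff.1 (hπ.2.1 (hle hx)) g
      rw [this, mul_inv_cancel_right]; exact hx⟩
  obtain ⟨T, hTx⟩ := hT hn
  refine ⟨d, hd2, le_antisymm (fun z hz => ?_) hle⟩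
  obtain ⟨φ, hφ⟩ := exists_hom_of_rels hS T.x T.x_add T.comm
  let πbar : E ⧸ Subgroup.zpowers (d : E) →* chevF4.SteinbergCover F := QuotientGroup.lift _ π hle
  have hid : πbar.comp φ = MonoidHom.id _ := PresentedGroup.ext fun p => by
    obtain ⟨y, hy, hy'⟩ := hTx p.1 p.1.2 p.2
    rw [MonoidHom.comp_apply, Cover.of_eq_scGen, hφ p.1 p.1.2 p.2, hy, MonoidHom.id_apply]
    exact hy'
  have hst : Cfsg.IsStemExtension πbar := by
    refine ⟨fun g => ⟨φ g, DFunLike.congr_fun hid g⟩, ?_, ?_⟩
    · intro q hq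
      obtain ⟨e, rfl⟩ := QuotientGroup.mk_surjective q
      rw [Subgroup.mem_center_iff]
      intro g
      obtain ⟨g, rfl⟩ := QuotientGroup.mk_surjective g
      rw [← QuotientGroup.mk_mul, ← QuotientGroup.mk_mul,
        Subgroup.mem_center_iff.1 (hπ.2.1 (show e ∈ π.ker from hq)) g]
    · intro q hq
      obtain ⟨e, rfl⟩ := QuotientGroup.mk_surjective q
      have he : e ∈ commutator E := hπ.2.2 (show e ∈ π.ker from hq)
      have := Subgroup.mem_map_of_mem (QuotientGroup.mk' (Subgroup.zpowers (d : E))) he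
      rw [commutator_def, Subgroup.map_commutator] at this
      exact Subgroup.commutator_mono le_top le_top this
  have hsur : Function.Surjective φ :=
    surjective_of_comp_surjective hst φ fun g => ⟨g, DFunLike.congr_fun hid g⟩
  obtain ⟨c, hc⟩ := hsur (QuotientGroup.mk z)
  have h1 : c = 1 := by
    have := DFunLike.congr_fun hid c
    rw [MonoidHom.comp_apply, hc, MonoidHom.id_apply] at this
    rw [← this]
    exact hz
  rw [h1, map_one, eq_comm, QuotientGroup.eq_one_iff] at hc
  exact hc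

/-- The group presented by (R1), (R2) is the simple group. -/
theorem nonempty_equiv_group :
    Nonempty (chevF4.SteinbergCover F ≃* ↥(chevF4.group F)) := by
  have hS : Rules chevF4 F := rules_of_mem F (by simp)
  obtain ⟨e, -⟩ := Cover.exists_equiv_steinberg hS
  obtain ⟨θ, hsur, hker, -⟩ := thm_S1077 hS
  have hinj : Function.Injective θ :=
    (MonoidHom.ker_eq_bot_iff θ).1 (hker.trans (center_eq_bot_of_unimodular hS unimodular_F4))
  exact ⟨e.trans (MulEquiv.ofBijective θ ⟨hinj, hsur⟩)⟩

/-- All roots have a defining pair. -/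
def gaugeCover : Bool := (List.range 48).all fun t => gauge.any fun g => Nat.beq g.1 t

theorem gaugeCover_ok : gaugeCover = true := by decide +kernel

theorem two_length : ((tT 0 29).getD []).length = 2 := by decide +kernel

theorem two_isSome : (tT 0 29).isSome = true := by decide +kernel

section Cover

variable {M : Type} [Group M] [Finite M] (U : ℕ → M) (c : M)

/-- A family satisfying the relations up to a central involution gives a double cover. -/
theorem exists_two_cover_of (hF : Fintype.card F = 2) (hout : ∀ r, ¬ r < 48 → U r = 1)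
    (hsqU : ∀ r, U r * U r = 1) (hcc : ∀ g, g * c = c * g) (hc2 : c * c = 1) (hc1 : c ≠ 1)
    (hU : ∀ a b t, a < b → b < 48 → tT a b = some t →
      U a * U b = (if t.length = 2 then c else 1) * (U b * U a * (t.map U).prod))
    (hne : U 33 ≠ 1 ∧ U 33 ≠ c) :
    ∃ (Γ : Type u) (_ : Group Γ) (_ : Finite Γ) (σ : Γ →* chevF4.SteinbergCover F),
      Cfsg.IsStemExtension σ ∧ Nat.card σ.ker = 2 := by
  classical
  obtain ⟨P, hP⟩ : ∃ P, P = Subgroup.closure (Set.range U) := ⟨_, rfl⟩
  have hg : ∀ r, U r ∈ P := fun r => hP ▸ Subgroup.subset_closure ⟨r, rfl⟩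
  let g : ℕ → P := fun r => ⟨U r, hg r⟩
  have hprod : ∀ t : List ℕ, (((t.map g).prod : P) : M) = (t.map U).prod := by
    intro t
    induction t with
    | nil => rfl
    | cons a t ih => rw [List.map_cons, List.prod_cons, Subgroup.coe_mul, ih, List.map_cons, List.prod_cons]
  have hcP : c ∈ P := by
    obtain ⟨t, ht⟩ := Option.isSome_iff_exists.1 two_isSome
    have hl : t.length = 2 := by
      have h := two_length
      rwa [ht] at h
    have e := hU 0 29 t (by norm_num) (by norm_num) ht
    rw [if_pos hl, ← mul_inv_eq_iff_eq_mul] at e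
    rw [← e, ← hprod]
    exact mul_mem (mul_mem (hg _) (hg _)) (inv_mem (mul_mem (mul_mem (hg _) (hg _)) (Subtype.prop _)))
  have hperf : commutator P = ⊤ := by
    have key : ∀ r, g r ∈ commutator P := by
      intro r
      by_cases hr : r < 48
      · have h := gaugeCover_ok
        simp only [gaugeCover, List.all_eq_true, List.mem_range, List.any_eq_true] at h
        obtain ⟨k, hk, hkr⟩ := h r hr
        have hk' := gauge_ok
        simp only [gaugeOK, List.all_eq_true, Bool.and_eq_true, decide_eq_true_eq] at hk'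
        obtain ⟨⟨⟨⟨hab, hb⟩, -⟩, hT⟩, -⟩ := hk' k hk
        have e := hU _ _ _ (Nat.le_of_ble_eq_true hab) (Nat.le_of_ble_eq_true hb) hT
        rw [if_neg (by simp), one_mul, List.map_cons, List.map_nil, List.prod_cons, List.prod_nil,
          mul_one, Nat.eq_of_beq_eq_true hkr] at e
        have e' : g r = (g k.2.1)⁻¹ * (g k.2.2)⁻¹ * (g k.2.1)⁻¹⁻¹ * (g k.2.2)⁻¹⁻¹ := by
          refine Subtype.ext ?_
          simp only [inv_inv, Subgroup.coe_mul, Subgroup.coe_inv, g]
          rw [mul_assoc ((U k.2.1)⁻¹ * (U k.2.2)⁻¹), e]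
          group
        rw [e']
        exact Subgroup.commutator_mem_commutator (Subgroup.mem_top _) (Subgroup.mem_top _)
      · rw [show g r = 1 from Subtype.ext (hout r hr)]
        exact one_mem _
    rw [eq_top_iff]
    rintro ⟨x, hx⟩ -
    have hx' : x ∈ Subgroup.closure (Set.range U) := hP ▸ hx
    revert hx
    refine Subgroup.closure_induction (p := fun x _ => ∀ hx : x ∈ P, (⟨x, hx⟩ : P) ∈ commutator P)
      ?_ ?_ ?_ ?_ hx'
    · rintro _ ⟨r, rfl⟩ _
      exact key r
    · exact fun _ => one_mem _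
    · intro a b ha hb h h' _
      exact mul_mem (h (hP ▸ ha)) (h' (hP ▸ hb))
    · intro a ha h _
      exact inv_mem (h (hP ▸ ha))
  let z : P := ⟨c, hcP⟩
  have hz2 : z * z = 1 := Subtype.ext hc2
  obtain ⟨Z, hZ⟩ : ∃ Z, Z = Subgroup.zpowers z := ⟨_, rfl⟩
  have hZc : Z ≤ Subgroup.center P := by
    rw [hZ, Subgroup.zpowers_le, Subgroup.mem_center_iff]
    exact fun x => Subtype.ext (hcc x)
  haveI : Z.Normal :=
    ⟨fun x hx y => by rw [Subgroup.mem_center_iff.1 (hZc hx) y, mul_inv_cancel_right]; exact hx⟩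
  have hz1 : ∀ x : P, (x : M) = 1 ∨ (x : M) = c → x ∈ Z := by
    intro x hx
    rw [hZ]
    rcases hx with hx | hx
    · rw [show x = 1 from Subtype.ext hx]; exact one_mem _
    · rw [show x = z from Subtype.ext hx]; exact Subgroup.mem_zpowers z
  have hS : Rules chevF4 F := rules_of_mem F (by simp)
  obtain ⟨eG⟩ := nonempty_equiv_group (F := F)
  let y : ℕ → P ⧸ Z := fun r => QuotientGroup.mk (g r)
  have hsq : ∀ r < 48, y r * y r = 1 := fun r _ => by
    show (QuotientGroup.mk (g r) : P ⧸ Z) * QuotientGroup.mk (g r) = 1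
    rw [← QuotientGroup.mk_mul, show g r * g r = 1 from Subtype.ext (hsqU r), QuotientGroup.mk_one]
  have hrel : ∀ a b t, a < b → b < 48 → tT a b = some t → y a * y b = y b * y a * (t.map y).prod := by
    intro a b t hab hb ht
    have e := hU a b t hab hb ht
    rw [show (t.map y).prod = QuotientGroup.mk' Z (t.map g).prod by rw [map_list_prod, List.map_map]; rfl]
    show (QuotientGroup.mk (g a * g b) : P ⧸ Z) = QuotientGroup.mk (g b * g a * (t.map g).prod)
    rw [QuotientGroup.eq_iff_div_mem]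
    refine hz1 _ ?_
    simp only [div_eq_mul_inv, Subgroup.coe_mul, Subgroup.coe_inv, hprod, g]
    rw [e, mul_inv_cancel_right]
    by_cases hl : t.length = 2
    · exact Or.inr (if_pos hl)
    · exact Or.inl (if_neg hl)
  let x : ℕ → F → P ⧸ Z := fun r t => if t = 0 then 1 else y r
  obtain ⟨hadd, hcomm⟩ := rels_of_table hF hS y hsq hrel x (fun r => if_pos rfl) fun r => if_neg one_ne_zero
  obtain ⟨ρ, hρ⟩ := exists_hom_of_rels hS x hadd hcomm
  have hρsur : Function.Surjective ρ := by
    intro q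
    obtain ⟨⟨a, ha⟩, rfl⟩ := QuotientGroup.mk_surjective q
    have ha' : a ∈ Subgroup.closure (Set.range U) := hP ▸ ha
    revert ha
    refine Subgroup.closure_induction
      (p := fun a _ => ∀ ha : a ∈ P, ∃ d, ρ d = (QuotientGroup.mk (⟨a, ha⟩ : P) : P ⧸ Z)) ?_ ?_ ?_ ?_ ha'
    · rintro _ ⟨r, rfl⟩ _
      by_cases hr : r < 48
      · exact ⟨chevF4.scGen F r 1, (hρ r hr 1).trans (if_neg one_ne_zero)⟩
      · exact ⟨1, by rw [map_one, ← QuotientGroup.mk_one]; exact congrArg _ (Subtype.ext (hout r hr).symm)⟩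
    · exact fun _ => ⟨1, by rw [map_one]; rfl⟩
    · intro a b ha hb h h' _
      obtain ⟨d, hd⟩ := h (hP ▸ ha)
      obtain ⟨d', hd'⟩ := h' (hP ▸ hb)
      exact ⟨d * d', by rw [map_mul, hd, hd']; rfl⟩
    · intro a ha h _
      obtain ⟨d, hd⟩ := h (hP ▸ ha)
      exact ⟨d⁻¹, by rw [map_inv, hd]; rfl⟩
  haveI hsimple : IsSimpleGroup (chevF4.SteinbergCover F) := by
    haveI := (thm_simple hS (perfectData_F4 F)).1
    exact eG.isSimpleGroup
  have hmemZ : ∀ w : P, w ∈ Z → (w : M) = 1 ∨ (w : M) = c := by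
    intro w hw
    rw [hZ] at hw
    obtain ⟨j, rfl⟩ := Subgroup.mem_zpowers_iff.1 hw
    rcases Int.even_or_odd j with ⟨k, rfl⟩ | ⟨k, rfl⟩
    · left; rw [← two_mul, zpow_mul, zpow_ofNat, pow_two, hz2, one_zpow]; rfl
    · right; rw [zpow_add_one, zpow_mul, zpow_ofNat, pow_two, hz2, one_zpow, one_mul]
  have hρinj : Function.Injective ρ := by
    rw [← MonoidHom.ker_eq_bot_iff]
    refine ((MonoidHom.normal_ker ρ).eq_bot_or_eq_top).resolve_right fun h => ?_
    have h1 : y 33 = 1 := by
      rw [← hρ 33 (show 33 < 48 by norm_num) 1 |>.trans (if_neg one_ne_zero), ← MonoidHom.mem_ker, h]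
      trivial
    rcases hmemZ _ ((QuotientGroup.eq_one_iff _).1 h1) with e | e
    · exact hne.1 e
    · exact hne.2 e
  let eq : chevF4.SteinbergCover F ≃* P ⧸ Z := MulEquiv.ofBijective ρ ⟨hρinj, hρsur⟩
  let σ₀ : P →* chevF4.SteinbergCover F := eq.symm.toMonoidHom.comp (QuotientGroup.mk' Z)
  let σ : ULift.{u} P →* chevF4.SteinbergCover F := σ₀.comp MulEquiv.ulift.toMonoidHom
  have hker : σ.ker = Z.map MulEquiv.ulift.symm.toMonoidHom := by
    ext w
    simp only [MonoidHom.mem_ker, σ, σ₀, MonoidHom.comp_apply, MulEquiv.coe_toMonoidHom,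
      EmbeddingLike.map_eq_one_iff, QuotientGroup.mk'_apply, QuotientGroup.eq_one_iff, Subgroup.mem_map]
    exact ⟨fun h => ⟨_, h, MulEquiv.ulift.symm_apply_apply w⟩, by rintro ⟨h, hh, rfl⟩; simpa using hh⟩
  refine ⟨ULift.{u} P, inferInstance, inferInstance, σ, ⟨?_, ?_, ?_⟩, ?_⟩
  · exact (eq.symm.surjective.comp (QuotientGroup.mk'_surjective _)).comp MulEquiv.ulift.surjective
  · rw [hker]
    rintro _ ⟨h, hh, rfl⟩
    rw [Subgroup.mem_center_iff]
    intro w
    exact ULift.ext _ _ (Subgroup.mem_center_iff.1 (hZc hh) w.down)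
  · rw [hker]
    rintro _ ⟨h, -, rfl⟩
    have h' : h ∈ commutator P := by rw [hperf]; trivial
    have := Subgroup.mem_map_of_mem MulEquiv.ulift.symm.toMonoidHom h'
    rw [commutator_def, Subgroup.map_commutator] at this
    exact Subgroup.commutator_mono le_top le_top this
  · rw [hker, ← Nat.card_congr (Subgroup.equivMapOfInjective _ _ MulEquiv.ulift.symm.injective).toEquiv,
      hZ, Nat.card_zpowers]
    haveI : Fact (Nat.Prime 2) := ⟨Nat.prime_two⟩
    exact orderOf_eq_prime (by rw [pow_two, hz2]) fun h => hc1 (congrArg Subtype.val h)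

end Cover

theorem neg_one_facts {M : Type*} [Monoid M] [HasDistribNeg M] :
    (∀ g : M, g * -1 = -1 * g) ∧ (-1 : M) * -1 = 1 :=
  ⟨fun g => by rw [mul_neg_one, neg_one_mul], by rw [mul_neg_one, neg_neg]⟩

theorem gU_out (r : ℕ) (hr : ¬ r < 48) : gU r = 1 :=
  Units.ext ((val_gU r).trans ((if_neg hr).trans Units.val_one.symm))

theorem gU_rel' (a b : ℕ) (t : List ℕ) (hab : a < b) (hb : b < 48) (ht : tT a b = some t) :
    gU a * gU b = (if t.length = 2 then -1 else 1) * (gU b * gU a * (t.map gU).prod) :=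
  gU_rel hab hb ht

theorem exists_two_cover (hF : Fintype.card F = 2) :
    ∃ (Γ : Type u) (_ : Group Γ) (_ : Finite Γ) (σ : Γ →* chevF4.SteinbergCover F),
      Cfsg.IsStemExtension σ ∧ Nat.card σ.ker = 2 := by
  exact exists_two_cover_of (M := Code.Mtˣ) gU (-1) hF gU_out gU_sq (neg_one_facts (M := Code.Mtˣ)).1
    (neg_one_facts (M := Code.Mtˣ)).2 neg_one_ne_one gU_rel' gen0_ne

/-- The multiplier has order two. -/
theorem multiplier_F4_two (hF : Fintype.card F = 2) :
    Cfsg.HasCyclicSchurMultiplier ↥(chevF4.group F) 2 := by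
  obtain ⟨eG⟩ := nonempty_equiv_group (F := F)
  refine hasSchurMultiplier_congr eG ⟨?_, fun Γ _ _ τ hτ => ?_⟩
  · obtain ⟨Γ, i1, i2, σ, hσ, hc⟩ := exists_two_cover hF
    haveI : Fact (Nat.Prime 2) := ⟨Nat.prime_two⟩
    haveI : IsCyclic σ.ker := isCyclic_of_prime_card hc
    exact ⟨Γ, i1, i2, σ, hσ, ⟨mulEquivOfCyclicCardEq
      (by rw [hc, Nat.card_congr Multiplicative.toAdd, Nat.card_zmod])⟩⟩
  · obtain ⟨d, hd2, hk⟩ := stem_bound hF hτ
    by_cases hd : (d : Γ) = 1
    · refine ⟨1, fun x => ⟨1, ?_⟩⟩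
      have hx : (x : Γ) ∈ Subgroup.zpowers (d : Γ) := hk ▸ x.2
      rw [hd, Subgroup.zpowers_one_eq_bot, Subgroup.mem_bot] at hx
      exact (Subtype.ext hx).symm
    · have hc : Nat.card τ.ker = 2 := by
        haveI : Fact (Nat.Prime 2) := ⟨Nat.prime_two⟩
        rw [hk, Nat.card_zpowers]
        exact orderOf_eq_prime (by rw [← Subgroup.coe_pow, hd2, Subgroup.coe_one]) hd
      haveI : Fact (Nat.Prime 2) := ⟨Nat.prime_two⟩
      haveI : IsCyclic τ.ker := isCyclic_of_prime_card hc
      let e : τ.ker ≃* Multiplicative (ZMod 2) :=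
        mulEquivOfCyclicCardEq (by rw [hc, Nat.card_congr Multiplicative.toAdd, Nat.card_zmod])
      exact ⟨e.symm.toMonoidHom, e.symm.surjective⟩

end Cfsg.Agent.Chev.F4Two
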