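import Cfsg.Agent.Chev.F4Two.RepCode
import Cfsg.Agent.Chev.F4Two.RepTables

/-!
# Checks on the matrices of degree 52: involutions, equivariance, and relations at the roots
-/

set_option autoImplicit false
set_option maxRecDepth 100000
set_option maxHeartbeats 0

namespace Cfsg.Agent.Chev.F4Two

open Code

/-- The sparse columns of a generator. -/
def cols (r : ℕ) : List (List (ℕ × Bool)) := genCols.getD r []

/-- The code of a product of generators after a given matrix. -/
def wordFrom (A : ℕ) : List ℕ → ℕ
  | [] => A
  | r :: w => wordFrom (mulCode A (cols r)) w

/-- The code of a product of generators. -/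
def wordCode (w : List ℕ) : ℕ := wordFrom oneCode w

/-- The index of a fundamental root. -/
def simp4 (i : ℕ) : ℕ := [33, 27, 25, 24].getD i 0

/-- The index of its negative. -/
def nsimp4 (i : ℕ) : ℕ := [14, 20, 22, 23].getD i 0

/-- The word of a reflecting element. -/
def nWd (i : ℕ) : List ℕ := [simp4 i, nsimp4 i, simp4 i]

/-- Well formed columns. -/
def colsAllOK : Bool := (List.range 48).all fun r => colsOK (cols r)

theorem colsAll_ok : colsAllOK = true := by decide +kernel

/-- The generators are involutions. -/
def invOK : Bool := (List.range 48).all fun r => Nat.beq (wordCode [r, r]) oneCode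

theorem inv_ok : invOK = true := by decide +kernel

/-- Equivariance for one reflection. -/
def conjOK (i : ℕ) : Bool :=
  let n := wordCode (nWd i)
  (List.range 48).all fun r => Nat.beq (mulCode n (cols r)) (wordCode (sR i r :: nWd i))

theorem conj0_ok : conjOK 0 = true := by decide +kernel

theorem conj1_ok : conjOK 1 = true := by decide +kernel

theorem conj2_ok : conjOK 2 = true := by decide +kernel

theorem conj3_ok : conjOK 3 = true := by decide +kernel

/-- The relation with its sign. -/
def relCodeOK (a b : ℕ) : Bool :=
  match tT a b with
  | none => false
  | some t =>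
    Nat.beq (wordCode [a, b])
      (bif Nat.beq t.length 2 then negCode (wordCode ([b, a] ++ t)) else wordCode ([b, a] ++ t))

/-- The relations at the roots of the forest. -/
def rootsOK : Bool := roots.all fun p => relCodeOK p.1 p.2

theorem roots_ok : rootsOK = true := by decide +kernel

end Cfsg.Agent.Chev.F4Two
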