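import Mathlib

/-!
# Packed matrices of degree 52 over the field with three elements

A column is coded by two planes of 52 bits, for the entries equal to one and to two.
-/

set_option autoImplicit false

namespace Cfsg.Agent.Chev.F4Two.Code

/-- Vectors. -/
abbrev Vc := Fin 52 → ZMod 3

/-- Matrices. -/
abbrev Mt := Matrix (Fin 52) (Fin 52) (ZMod 3)

/-- The mask of one plane. -/
def mask : ℕ := 4503599627370495

/-- The plane of the ones. -/
def lo (x : ℕ) : ℕ := Nat.land x mask

/-- The plane of the twos. -/
def hi (x : ℕ) : ℕ := Nat.shiftRight x 52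

/-- The code of two planes. -/
def mk2 (p n : ℕ) : ℕ := Nat.lor p (Nat.shiftLeft n 52)

/-- The first without the second. -/
def sub1 (a b : ℕ) : ℕ := Nat.xor a (Nat.land a b)

/-- The sum of two columns. -/
def addC (x y : ℕ) : ℕ :=
  mk2
    (Nat.lor (Nat.lor (sub1 (lo x) (Nat.lor (lo y) (hi y))) (sub1 (lo y) (Nat.lor (lo x) (hi x))))
      (Nat.land (hi x) (hi y)))
    (Nat.lor (Nat.lor (sub1 (hi x) (Nat.lor (lo y) (hi y))) (sub1 (hi y) (Nat.lor (lo x) (hi x))))
      (Nat.land (lo x) (lo y)))

/-- The negative of a column. -/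
def negC (x : ℕ) : ℕ := mk2 (hi x) (lo x)

/-- The code of a vector. -/
def encV (v : Vc) : ℕ :=
  mk2 (Nat.ofBits fun i => decide (v i = 1)) (Nat.ofBits fun i => decide (v i = 2))

theorem testBit_mask (i : ℕ) : mask.testBit i = decide (i < 52) := by
  rw [show mask = 2 ^ 52 - 1 from rfl, Nat.testBit_two_pow_sub_one]

theorem testBit_lo (x i : ℕ) : (lo x).testBit i = (x.testBit i && decide (i < 52)) := by
  show (x &&& mask).testBit i = _
  rw [Nat.testBit_and, testBit_mask]

theorem testBit_hi (x i : ℕ) : (hi x).testBit i = x.testBit (52 + i) := by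
  show (x >>> 52).testBit i = _
  rw [Nat.testBit_shiftRight]

theorem testBit_sub1 (a b i : ℕ) : (sub1 a b).testBit i = (a.testBit i && !b.testBit i) := by
  show (a ^^^ (a &&& b)).testBit i = _
  rw [Nat.testBit_xor, Nat.testBit_and]
  cases a.testBit i <;> cases b.testBit i <;> rfl

theorem lo_mk2 {p : ℕ} (hp : p < 2 ^ 52) (n : ℕ) : lo (mk2 p n) = p := by
  refine Nat.eq_of_testBit_eq fun i => ?_
  rw [testBit_lo]
  show ((p ||| n <<< 52).testBit i && _) = _
  rw [Nat.testBit_or, Nat.testBit_shiftLeft]
  by_cases h : i < 52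
  · simp [h, Nat.not_le.2 h]
  · simp [h, Nat.testBit_lt_two_pow (lt_of_lt_of_le hp (Nat.pow_le_pow_right (by norm_num) (Nat.not_lt.1 h)))]

theorem hi_mk2 {p : ℕ} (hp : p < 2 ^ 52) (n : ℕ) : hi (mk2 p n) = n := by
  refine Nat.eq_of_testBit_eq fun i => ?_
  rw [testBit_hi]
  show (p ||| n <<< 52).testBit (52 + i) = _
  rw [Nat.testBit_or, Nat.testBit_shiftLeft,
    Nat.testBit_lt_two_pow (lt_of_lt_of_le hp (Nat.pow_le_pow_right (by norm_num) (Nat.le_add_right 52 i)))]
  simp

theorem lo_encV (v : Vc) : lo (encV v) = Nat.ofBits fun i => decide (v i = 1) :=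
  lo_mk2 (Nat.ofBits_lt_two_pow _) _

theorem hi_encV (v : Vc) : hi (encV v) = Nat.ofBits fun i => decide (v i = 2) :=
  hi_mk2 (Nat.ofBits_lt_two_pow _) _

theorem encV_lt (v : Vc) : encV v < 2 ^ 104 := by
  show (_ ||| _ <<< 52) < 2 ^ 104
  refine Nat.or_lt_two_pow ((Nat.ofBits_lt_two_pow _).trans_le (by norm_num)) ?_
  rw [Nat.shiftLeft_eq, show (2 : ℕ) ^ 104 = 2 ^ 52 * 2 ^ 52 by norm_num]
  exact Nat.mul_lt_mul_of_pos_right (Nat.ofBits_lt_two_pow _) (by norm_num)

theorem testBit_planes (v : Vc) (i : ℕ) (h : i < 52) :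
    (lo (encV v)).testBit i = decide (v ⟨i, h⟩ = 1) ∧ (hi (encV v)).testBit i = decide (v ⟨i, h⟩ = 2) := by
  rw [lo_encV, hi_encV, Nat.testBit_ofBits_lt _ _ h, Nat.testBit_ofBits_lt _ _ h]
  exact ⟨rfl, rfl⟩

theorem addC_encV (v w : Vc) : encV (v + w) = addC (encV v) (encV w) := by
  rw [addC]
  refine congrArg₂ mk2 ?_ ?_ <;> refine Nat.eq_of_testBit_eq fun i => ?_ <;>
  · simp only [show ∀ a b : ℕ, Nat.lor a b = a ||| b from fun _ _ => rfl,
      show ∀ a b : ℕ, Nat.land a b = a &&& b from fun _ _ => rfl, Nat.testBit_or, Nat.testBit_and,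
      testBit_sub1]
    by_cases h : i < 52
    · obtain ⟨h1, h2⟩ := testBit_planes v i h
      obtain ⟨h3, h4⟩ := testBit_planes w i h
      rw [Nat.testBit_ofBits_lt _ _ h, h1, h2, h3, h4, Pi.add_apply]
      generalize v ⟨i, h⟩ = a
      generalize w ⟨i, h⟩ = b
      revert a b
      decide
    · rw [Nat.testBit_ofBits_ge _ _ (Nat.not_lt.1 h), lo_encV, hi_encV, lo_encV, hi_encV]
      simp [Nat.testBit_ofBits_ge _ _ (Nat.not_lt.1 h)]

theorem negC_encV (v : Vc) : encV (-v) = negC (encV v) := by
  rw [negC, lo_encV, hi_encV, encV]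
  congr 2 <;> funext i <;>
  · show decide (-v i = _) = decide (v i = _)
    generalize v i = a
    revert a
    decide

theorem encV_zero : encV 0 = 0 := by
  rw [encV]
  have h1 : (Nat.ofBits fun i : Fin 52 => decide ((0 : Vc) i = 1)) = 0 := by decide +kernel
  have h2 : (Nat.ofBits fun i : Fin 52 => decide ((0 : Vc) i = 2)) = 0 := by decide +kernel
  rw [h1, h2]
  rfl

theorem encV_injective : Function.Injective encV := by
  intro v w h
  funext i
  have h1 := (testBit_planes v i i.2).1
  have h2 := (testBit_planes v i i.2).2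
  rw [h, (testBit_planes w i i.2).1] at h1
  rw [h, (testBit_planes w i i.2).2] at h2
  have key : ∀ a b : ZMod 3, (decide (b = 1) = decide (a = 1)) →
      (decide (b = 2) = decide (a = 2)) → a = b := by decide
  exact key _ _ h1 h2

/-- Packed columns. -/
def packC : List ℕ → ℕ
  | [] => 0
  | c :: l => Nat.lor c (Nat.shiftLeft (packC l) 104)

/-- The column of a packed matrix. -/
def getCol (A k : ℕ) : ℕ :=
  Nat.land (Nat.shiftRight A (Nat.mul 104 k)) 20282409603651670423947251286015

theorem getCol_packC : ∀ (l : List ℕ), (∀ c ∈ l, c < 2 ^ 104) → ∀ k (h : k < l.length),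
    getCol (packC l) k = l[k]
  | [], _, k, h => by simp at h
  | c :: l, hl, k, h => by
    have hc := hl c List.mem_cons_self
    refine Nat.eq_of_testBit_eq fun i => ?_
    show (((c ||| packC l <<< 104) >>> (104 * k)) &&& 20282409603651670423947251286015).testBit i = _
    rw [Nat.testBit_and, Nat.testBit_shiftRight, Nat.testBit_or, Nat.testBit_shiftLeft,
      show (20282409603651670423947251286015 : ℕ) = 2 ^ 104 - 1 by norm_num,
      Nat.testBit_two_pow_sub_one]
    have hbig : ∀ j, 104 ≤ j → c.testBit j = false := fun j hj =>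
      Nat.testBit_lt_two_pow (hc.trans_le (Nat.pow_le_pow_right (by norm_num) hj))
    match k, h with
    | 0, _ =>
      rw [Nat.mul_zero, Nat.zero_add, List.getElem_cons_zero]
      by_cases hi : i < 104
      · simp [hi, Nat.not_le.2 hi]
      · simp [hi, hbig i (Nat.not_lt.1 hi)]
    | k + 1, h =>
      have ih := getCol_packC l (fun x hx => hl x (List.mem_cons_of_mem _ hx)) k
        (by simpa using h)
      rw [List.getElem_cons_succ, ← ih]
      show _ = ((packC l >>> (104 * k)) &&& 20282409603651670423947251286015).testBit i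
      rw [Nat.testBit_and, Nat.testBit_shiftRight,
        show (20282409603651670423947251286015 : ℕ) = 2 ^ 104 - 1 by norm_num,
        Nat.testBit_two_pow_sub_one, hbig _ (by rw [Nat.mul_succ]; omega)]
      have e : 104 * (k + 1) + i - 104 = 104 * k + i := by rw [Nat.mul_succ]; omega
      simp [e, show 104 ≤ 104 * (k + 1) + i by rw [Nat.mul_succ]; omega]

/-- The code of a matrix, by columns. -/
def encM (M : Mt) : ℕ := packC (List.ofFn fun j => encV fun i => M i j)

theorem getCol_encM (M : Mt) (j : Fin 52) : getCol (encM M) j = encV fun i => M i j := by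
  rw [encM, getCol_packC _ (fun c hc => by
    obtain ⟨k, rfl⟩ := List.mem_ofFn.1 hc
    exact encV_lt _) j (by simp), List.getElem_ofFn]

theorem encM_injective : Function.Injective encM := fun M N h => by
  funext i j
  have e := getCol_encM M j
  rw [h, getCol_encM] at e
  exact (congrFun (encV_injective e) i).symm

/-- The combination of columns given by a sparse column. -/
def combo (A : ℕ) : List (ℕ × Bool) → ℕ
  | [] => 0
  | p :: l => addC (bif p.2 then negC (getCol A p.1) else getCol A p.1) (combo A l)

/-- The product with a sparse matrix on the right. -/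
def mulCode (A : ℕ) (cols : List (List (ℕ × Bool))) : ℕ := packC (cols.map (combo A))

/-- The vector of a sparse column. -/
def colVec : List (ℕ × Bool) → Vc
  | [] => 0
  | p :: l => (if h : p.1 < 52 then Pi.single ⟨p.1, h⟩ (bif p.2 then 2 else 1) else 0) + colVec l

/-- The matrix of sparse columns. -/
def toMat (cols : List (List (ℕ × Bool))) : Mt :=
  Matrix.of fun i j => colVec (cols.getD j []) i

/-- The indices are in range. -/
def colsOK (cols : List (List (ℕ × Bool))) : Bool :=
  Nat.beq cols.length 52 && cols.all fun c => c.all fun p => Nat.blt p.1 52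

theorem combo_eq (M : Mt) : ∀ c : List (ℕ × Bool), (∀ p ∈ c, p.1 < 52) →
    combo (encM M) c = encV (M.mulVec (colVec c))
  | [], _ => by rw [combo, colVec, Matrix.mulVec_zero, encV_zero]
  | p :: l, h => by
    have hp := h p List.mem_cons_self
    rw [combo, combo_eq M l fun q hq => h q (List.mem_cons_of_mem _ hq), colVec, dif_pos hp,
      Matrix.mulVec_add, addC_encV]
    congr 1
    have hcol := getCol_encM M ⟨p.1, hp⟩
    cases p.2
    · rw [cond_false, cond_false, hcol]
      exact congrArg encV (funext fun i => by simp)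
    · rw [cond_true, cond_true, hcol, ← negC_encV]
      exact congrArg encV (funext fun i => by
        rw [Pi.neg_apply, Matrix.mulVec_single]
        have key : ∀ a : ZMod 3, -a = a * 2 := by decide
        simpa using key (M i ⟨p.1, hp⟩))

theorem mulCode_eq (M : Mt) {cols : List (List (ℕ × Bool))} (h : colsOK cols = true) :
    mulCode (encM M) cols = encM (M * toMat cols) := by
  simp only [colsOK, Bool.and_eq_true, List.all_eq_true] at h
  obtain ⟨hlen, hall⟩ := h
  have hlen' := Nat.eq_of_beq_eq_true hlen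
  have e : ∀ N : Mt, encM N = packC (List.ofFn fun j => encV fun i => N i j) := fun N => by rw [encM]
  obtain ⟨N, hN⟩ : ∃ N, N = M * toMat cols := ⟨_, rfl⟩
  rw [mulCode, ← hN, e N]
  subst hN
  refine congrArg packC ?_
  refine List.ext_getElem (by simp [hlen']) fun j h1 h2 => ?_
  rw [List.getElem_map, List.getElem_ofFn,
    combo_eq M _ fun p hp => Nat.le_of_ble_eq_true (hall _ (List.getElem_mem (by simpa using h1)) p hp)]
  refine congrArg encV ?_
  funext i
  simp only [Matrix.mulVec, dotProduct, Matrix.mul_apply, toMat, Matrix.of_apply]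
  rw [List.getD_eq_getElem _ _ (by simpa using h1)]

/-- The code of the identity. -/
def oneCode : ℕ := packC ((List.range 52).map fun j => Nat.shiftLeft 1 j)

theorem encM_one : encM (1 : Mt) = oneCode := by decide +kernel

/-- The code of the negative. -/
def negCode (A : ℕ) : ℕ := packC ((List.range 52).map fun j => negC (getCol A j))

theorem negCode_eq (M : Mt) : negCode (encM M) = encM (-M) := by
  rw [negCode, encM]
  congr 1
  refine List.ext_getElem (by simp) fun j h1 h2 => ?_
  have hj : j < 52 := by simpa using h1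
  rw [List.getElem_map, List.getElem_range, List.getElem_ofFn,
    show getCol (packC (List.ofFn fun j => encV fun i => M i j)) j = encV fun i => M i ⟨j, hj⟩ from
      getCol_encM M ⟨j, hj⟩, ← negC_encV]
  rfl

end Cfsg.Agent.Chev.F4Two.Code
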