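import Mathlib

/-!
# Certified rewriting of words in lifts of root elements of order two

Lifts `L r` of 48 involutions into a group, whose squares and commutator relations hold up to
central elements `V`. A rewriting script turns a word into another one times a list of these
central elements; a list of such rows determines all the central elements as powers of one.
-/

set_option autoImplicit false

namespace Cfsg.Agent.Chev.F4Two

/-- The variable of a square. -/
def qVar (r : ℕ) : ℕ := bif Nat.blt r 48 then r else Nat.add r 10000

/-- The variable of a pair. -/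
def eVar (a b : ℕ) : ℕ := Nat.add 48 (Nat.add (Nat.mul 48 a) b)

/-- The variable of a conjugation. -/
def nVar (i r : ℕ) : ℕ := Nat.add 2352 (Nat.add (Nat.mul 48 i) r)

/-- The slot `k` of width `w` of a table. -/
def slot (tab w k : ℕ) : ℕ := Nat.mod (Nat.shiftRight tab (Nat.mul w k)) (Nat.pow 2 w)

/-- The terms of the relation of a pair, if there is one. -/
def decodeT (n : ℕ) : Option (List ℕ) :=
  bif Nat.beq n 65535 then none else
  bif Nat.beq n 0 then some [] else
  bif Nat.beq (Nat.div n 64) 0 then some [n - 1] else
  some [Nat.mod n 64 - 1, Nat.div n 64 - 1]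

/-- A sum of variables with signs. -/
abbrev Vec := List (ℕ × Bool)

/-- One step of a script: cancel a square or exchange two letters at a position. -/
def step (T : ℕ → ℕ → Option (List ℕ)) : List ℕ → ℕ → Option (List ℕ × Vec)
  | c :: w, i + 1 => (step T w i).map fun p => (c :: p.1, p.2)
  | a :: b :: w, 0 =>
    bif Nat.beq a b then some (w, [(qVar a, true)]) else
    bif Nat.blt a b then
      (bif Nat.blt b 48 then (T a b).map fun t => ([b, a] ++ t ++ w, [(eVar a b, true)]) else none)
    else
      (bif Nat.blt a 48 then
        (T b a).map fun t => ([b, a] ++ t.reverse ++ w,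
          (eVar b a, false) :: t.map fun x => (qVar x, false))
      else none)
  | _, _ => none

/-- A script. -/
def run (T : ℕ → ℕ → Option (List ℕ)) : List ℕ → List ℕ → Option (List ℕ × Vec)
  | w, [] => some (w, [])
  | w, i :: sc =>
    match step T w i with
    | none => none
    | some (w', v) =>
      match run T w' sc with
      | none => none
      | some (w'', v') => some (w'', v ++ v')

/-- The negative. -/
def Vec.neg (v : Vec) : Vec := v.map fun p => (p.1, !p.2)

/-- A row: the variable determined, `0` or one more than the index of a conjugation, a word and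
two scripts. For a conjugation the word is first rewritten at its head. -/
structure Row where
  /-- The variable determined. -/
  v : ℕ
  /-- The conjugation. -/
  i : ℕ
  /-- The word. -/
  w : List ℕ
  /-- The first script. -/
  s : List ℕ
  /-- The second script. -/
  s' : List ℕ

/-- The variables of conjugating a word. -/
def etaVec (i : ℕ) (w : List ℕ) : Vec := w.map fun r => (nVar i r, true)

/-- The equation of a row. -/
def Row.eqn (R : Row) (T : ℕ → ℕ → Option (List ℕ)) (sr : ℕ → ℕ → ℕ) : Option Vec :=
  bif Nat.beq R.i 0 then
    match run T R.w R.s, run T R.w R.s' with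
    | some (f, v), some (f', v') => bif decide (f = f') then some (v ++ Vec.neg v') else none
    | _, _ => none
  else
    bif Nat.blt (R.i - 1) 4 && R.w.all (fun r => Nat.blt r 48) then
    match run T R.w [0] with
    | none => none
    | some (w', v₀) =>
      bif w'.all (fun r => Nat.blt r 48) then
      match run T (R.w.map (sr (R.i - 1))) R.s, run T (w'.map (sr (R.i - 1))) R.s' with
      | some (f, v), some (f', v') =>
        bif decide (f = f') then
          some (v ++ etaVec (R.i - 1) R.w ++ Vec.neg (v' ++ etaVec (R.i - 1) w' ++ v₀))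
        else none
      | _, _ => none
      else none
    else none

/-- The value of a signed entry. -/
def sgnVal (C : ℕ → ℤ) (p : ℕ × Bool) : ℤ := bif p.2 then C p.1 else -C p.1

/-- The weighted sum. -/
def total (C : ℕ → ℤ) : Vec → ℤ
  | [] => 0
  | p :: l => sgnVal C p + total C l

/-- The multiplicity of a variable. -/
def coef (v : ℕ) : Vec → ℤ
  | [] => 0
  | p :: l => (bif Nat.beq p.1 v then (bif p.2 then 1 else -1) else 0) + coef v l

/-- The remainder after removing a signed variable, if it occurs. -/
def removeOne (p : ℕ × Bool) : Vec → Option Vec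
  | [] => none
  | q :: l =>
    bif Nat.beq p.1 q.1 && (p.2 == q.2) then some l
    else (removeOne p l).map fun l' => q :: l'

/-- Remove opposite entries. -/
def cancel : Vec → Vec
  | [] => []
  | p :: l =>
    match removeOne (p.1, !p.2) (cancel l) with
    | some l' => l'
    | none => p :: cancel l

/-- A row determines its variable from those of smaller rank. -/
def rowOK (T : ℕ → ℕ → Option (List ℕ)) (sr : ℕ → ℕ → ℕ) (C : ℕ → ℤ) (rk : ℕ → ℕ) (k : ℕ) (R : Row) :
    Bool :=
  match R.eqn T sr with
  | none => false
  | some raw =>
    let l := cancel raw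
    l.all (fun p => Nat.beq p.1 R.v || Nat.ble (rk p.1) k) && Nat.beq (rk R.v) (k + 1) &&
      (decide (coef R.v l = 1) || decide (coef R.v l = -1)) && decide (total C l = 0)

/-- A list of rows, the first of which gives the rank `k + 1`. -/
def rowsOK (T : ℕ → ℕ → Option (List ℕ)) (sr : ℕ → ℕ → ℕ) (C : ℕ → ℤ) (rk : ℕ → ℕ) : ℕ → List Row → Bool
  | _, [] => true
  | k, R :: l => rowOK T sr C rk k R && rowsOK T sr C rk (k + 1) l

/-- Lifts of involutions with relations up to central elements. -/
structure Lifts (T : ℕ → ℕ → Option (List ℕ)) (sr : ℕ → ℕ → ℕ) (E : Type*) [Group E] where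
  /-- The lifts. -/
  L : ℕ → E
  /-- The conjugating elements. -/
  N : ℕ → E
  /-- The deviations. -/
  V : ℕ → Subgroup.center E
  sq : ∀ a, L a * L a = V (qVar a)
  rel : ∀ a b t, a < b → b < 48 → T a b = some t →
    L a * L b = L b * L a * (t.map L).prod * V (eVar a b)
  conj : ∀ i r, i < 4 → r < 48 → N i * L r * (N i)⁻¹ = L (sr i r) * V (nVar i r)

variable {T : ℕ → ℕ → Option (List ℕ)} {sr : ℕ → ℕ → ℕ} {E : Type*} [Group E]

/-- The value of a signed variable. -/
def valOne (X : Lifts T sr E) (p : ℕ × Bool) : Subgroup.center E :=
  bif p.2 then X.V p.1 else (X.V p.1)⁻¹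

/-- The value of a sum. -/
def val (X : Lifts T sr E) : Vec → Subgroup.center E
  | [] => 1
  | p :: l => valOne X p * val X l

/-- The value of a word. -/
def ev (X : Lifts T sr E) (w : List ℕ) : E := (w.map X.L).prod

variable (X : Lifts T sr E)

theorem val_append (l l' : Vec) : val X (l ++ l') = val X l * val X l' := by
  induction l with
  | nil => simp [val]
  | cons p l ih => simp [val, ih, mul_assoc]

theorem center_comm (x : Subgroup.center E) (g : E) : g * x = x * g :=
  Subgroup.mem_center_iff.1 x.2 g

theorem center_mul_comm (x y : Subgroup.center E) : x * y = y * x :=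
  Subtype.ext (center_comm y x)

theorem center_commute (x : Subgroup.center E) (g : E) : Commute (x : E) g :=
  (center_comm x g).symm

theorem val_neg (l : Vec) : val X (Vec.neg l) = (val X l)⁻¹ := by
  induction l with
  | nil => simp [val, Vec.neg]
  | cons p l ih =>
    obtain ⟨v, b⟩ := p
    have e : Vec.neg ((v, b) :: l) = (v, !b) :: Vec.neg l := rfl
    rw [e, val, val, ih, mul_inv_rev, center_mul_comm]
    cases b <;> simp [valOne]

theorem ev_append (w w' : List ℕ) : ev X (w ++ w') = ev X w * ev X w' := by simp [ev]

theorem ev_cons (c : ℕ) (w : List ℕ) : ev X (c :: w) = X.L c * ev X w := by simp [ev]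

theorem inv_L (a : ℕ) : (X.L a)⁻¹ = X.L a * ((X.V (qVar a))⁻¹ : Subgroup.center E) := by
  rw [inv_eq_iff_mul_eq_one, ← mul_assoc, X.sq, ← Subgroup.coe_mul, mul_inv_cancel,
    Subgroup.coe_one]

theorem ev_reverse (t : List ℕ) :
    (ev X t)⁻¹ = ev X t.reverse * (val X (t.map fun x => (qVar x, false)) : E) := by
  induction t with
  | nil => simp [ev, val]
  | cons c t ih =>
    rw [ev_cons, mul_inv_rev, ih, List.reverse_cons, ev_append, List.map_cons, val, ev_cons,
      inv_L, Subgroup.coe_mul]
    simp only [ev, List.map_nil, List.prod_nil, mul_one, valOne, cond_false]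
    simp only [← mul_assoc]
    rw [mul_assoc (List.map X.L t.reverse).prod _ (X.L c), ← center_comm _ (X.L c)]
    simp only [mul_assoc]
    rw [center_comm]

theorem step_sound : ∀ (w : List ℕ) (i : ℕ) {w' : List ℕ} {v : Vec},
    step T w i = some (w', v) → ev X w = ev X w' * (val X v : E)
  | c :: w, i + 1, w', v, h => by
    rw [step, Option.map_eq_some_iff] at h
    obtain ⟨⟨u, x⟩, hu, he⟩ := h
    cases he
    rw [ev_cons, ev_cons, step_sound w i hu, mul_assoc]
  | a :: b :: w, 0, w', v, h => by
    rw [step] at h
    cases hab : Nat.beq a b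
    · rw [hab, cond_false] at h
      cases hlt : Nat.blt a b
      · rw [hlt, cond_false] at h
        cases ha : Nat.blt a 48
        · simp [ha] at h
        rw [ha, cond_true, Option.map_eq_some_iff] at h
        obtain ⟨t, ht, he⟩ := h
        cases he
        have hne : a ≠ b := fun e => by simp [e] at hab
        have hba : b < a := by
          have : ¬ a < b := fun e => by
            rw [show Nat.blt a b = true from Nat.ble_eq_true_of_le e] at hlt; exact Bool.noConfusion hlt
          omega
        have hr := X.rel b a t hba (Nat.le_of_ble_eq_true ha) ht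
        have h2 : X.L a * X.L b =
            X.L b * X.L a * ((X.V (eVar b a))⁻¹ : Subgroup.center E) * (ev X t)⁻¹ := by
          rw [hr, ev]
          rw [Subgroup.coe_inv]
          group
        rw [ev_reverse] at h2
        rw [show [b, a] ++ t.reverse ++ w = b :: a :: (t.reverse ++ w) from rfl, ev_cons X a,
          ev_cons X b, ← mul_assoc, h2, ev_cons, ev_cons, ev_append, val, valOne, cond_false,
          Subgroup.coe_mul]
        simp only [mul_assoc]
        congr 2
        rw [← mul_assoc (ev X w) _ _, center_comm _ (ev X w), mul_assoc, center_comm _ (ev X w),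
          ← mul_assoc ((_ : Subgroup.center E) : E) (ev X t.reverse),
          ← center_comm _ (ev X t.reverse)]
        simp only [mul_assoc]
      · rw [hlt, cond_true] at h
        cases hb : Nat.blt b 48
        · simp [hb] at h
        rw [hb, cond_true, Option.map_eq_some_iff] at h
        obtain ⟨t, ht, he⟩ := h
        cases he
        have hr := X.rel a b t (Nat.le_of_ble_eq_true hlt) (Nat.le_of_ble_eq_true hb) ht
        rw [ev_cons, ev_cons, ← mul_assoc, hr, show [b, a] ++ t ++ w = b :: a :: (t ++ w) from rfl,
          ev_cons, ev_cons, ev_append, val, val, valOne, cond_true, mul_one]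
        simp only [mul_assoc, ev]
        rw [center_comm]
    · rw [hab, cond_true] at h
      cases h
      rw [Nat.eq_of_beq_eq_true hab, ev_cons, ev_cons, ← mul_assoc, X.sq, val, val, mul_one,
        center_comm]
      rfl
  | [], _, _, _, h => by simp [step] at h
  | [_], 0, _, _, h => by simp [step] at h

theorem run_sound : ∀ (sc w : List ℕ) {w' : List ℕ} {v : Vec},
    run T w sc = some (w', v) → ev X w = ev X w' * (val X v : E)
  | [], w, w', v, h => by
    rw [run] at h
    cases h
    simp [val]
  | i :: sc, w, w', v, h => by
    rw [run] at h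
    split at h
    · simp at h
    · rename_i u x hu
      split at h
      · simp at h
      · rename_i u' x' hu'
        cases h
        rw [step_sound X w i hu, run_sound sc u hu', val_append, center_mul_comm, Subgroup.coe_mul,
          mul_assoc]

theorem conj_ev {i : ℕ} (hi : i < 4) : ∀ w : List ℕ, (∀ r ∈ w, r < 48) →
    X.N i * ev X w * (X.N i)⁻¹ = ev X (w.map (sr i)) * (val X (etaVec i w) : E)
  | [], _ => by simp [ev, val, etaVec]
  | c :: w, h => by
    have ih := conj_ev hi w fun r hr => h r (List.mem_cons_of_mem _ hr)
    have hc := X.conj i c hi (h c List.mem_cons_self)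
    calc X.N i * ev X (c :: w) * (X.N i)⁻¹
        = (X.N i * X.L c * (X.N i)⁻¹) * (X.N i * ev X w * (X.N i)⁻¹) := by rw [ev_cons]; group
      _ = _ := by
        rw [hc, ih]
        simp only [etaVec, List.map_cons, ev_cons, val, valOne, cond_true, Subgroup.coe_mul,
          mul_assoc]
        rw [← mul_assoc ((X.V (nVar i c) : Subgroup.center E) : E), ← center_comm]
        simp only [mul_assoc]

theorem eq_of_mul_val {f : List ℕ} {l l' : Vec} (h : ev X f * (val X l : E) = ev X f * (val X l' : E)) :
    val X (l ++ Vec.neg l') = 1 := by
  rw [val_append, val_neg, mul_inv_eq_one]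
  exact Subtype.ext (mul_left_cancel h)

theorem eqn_sound (R : Row) {l : Vec} (h : R.eqn T sr = some l) : val X l = 1 := by
  rw [Row.eqn] at h
  cases hi : Nat.beq R.i 0
  · rw [hi, cond_false] at h
    cases hA : (Nat.blt (R.i - 1) 4 && R.w.all fun r => Nat.blt r 48)
    · simp [hA] at h
    rw [hA, cond_true] at h
    simp only [Bool.and_eq_true, List.all_eq_true, Nat.blt_eq] at hA
    obtain ⟨h4, hw⟩ := hA
    split at h
    · simp at h
    rename_i w' v₀ h0
    cases hB : w'.all fun r => Nat.blt r 48
    · simp [hB] at h
    rw [hB, cond_true] at h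
    simp only [List.all_eq_true, Nat.blt_eq] at hB
    split at h
    · rename_i f v f' v' h1 h2
      cases hf : decide (f = f')
      · simp [hf] at h
      rw [hf, cond_true] at h
      cases h
      obtain rfl := of_decide_eq_true hf
      have e1 := conj_ev X h4 R.w hw
      rw [run_sound X [0] R.w h0, ← mul_assoc, mul_assoc _ (val X v₀ : E),
        ← center_comm (val X v₀) (X.N (R.i - 1))⁻¹, ← mul_assoc, conj_ev X h4 w' hB,
        run_sound X R.s _ h1, run_sound X R.s' _ h2] at e1
      refine eq_of_mul_val X (f := f) ?_
      simp only [val_append, Subgroup.coe_mul, ← mul_assoc]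
      exact e1.symm
    · simp at h
  · rw [hi, cond_true] at h
    split at h
    · rename_i f v f' v' h1 h2
      cases hf : decide (f = f')
      · simp [hf] at h
      rw [hf, cond_true] at h
      cases h
      obtain rfl := of_decide_eq_true hf
      exact eq_of_mul_val X (f := f) ((run_sound X R.s R.w h1).symm.trans (run_sound X R.s' R.w h2))
    · simp at h

theorem val_removeOne (p : ℕ × Bool) : ∀ (l : Vec) {l' : Vec}, removeOne p l = some l' →
    val X l = valOne X p * val X l'
  | [], _, h => by simp [removeOne] at h
  | q :: l, l', h => by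
    rw [removeOne] at h
    cases hq : (Nat.beq p.1 q.1 && (p.2 == q.2))
    · rw [hq, cond_false, Option.map_eq_some_iff] at h
      obtain ⟨m, hm, rfl⟩ := h
      rw [val, val, val_removeOne p l hm, ← mul_assoc, center_mul_comm (valOne X q), mul_assoc]
    · rw [hq, cond_true] at h
      cases h
      rw [Bool.and_eq_true, beq_iff_eq] at hq
      obtain ⟨a, b⟩ := p
      obtain ⟨a', b'⟩ := q
      obtain ⟨h1, rfl⟩ := hq
      obtain rfl := Nat.eq_of_beq_eq_true h1
      rfl

theorem val_cancel : ∀ l : Vec, val X (cancel l) = val X l
  | [] => rfl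
  | p :: l => by
    rw [cancel]
    have ih := val_cancel l
    split
    · rename_i l' h
      have e := val_removeOne X _ _ h
      rw [ih] at e
      rw [val, e, ← mul_assoc]
      obtain ⟨a, b⟩ := p
      cases b <;> simp [valOne]
    · rw [val, val, ih]

theorem val_eq_of_known {C : ℕ → ℤ} (d : Subgroup.center E) (v : ℕ) :
    ∀ l : Vec, (∀ p ∈ l, p.1 = v ∨ X.V p.1 = d ^ C p.1) →
      val X l = X.V v ^ coef v l * d ^ (total C l - coef v l * C v)
  | [], _ => by simp [val, coef, total]
  | p :: l, h => by
    let _ : CommGroup (Subgroup.center E) :=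
      { (inferInstance : Group (Subgroup.center E)) with mul_comm := center_mul_comm }
    have ih := val_eq_of_known d v l fun q hq => h q (List.mem_cons_of_mem _ hq)
    obtain ⟨x, b⟩ := p
    rw [val, ih, coef, total, sgnVal, valOne]
    cases hx : Nat.beq x v
    · have hxv : x ≠ v := fun e => by simp [e] at hx
      have hk := (h (x, b) List.mem_cons_self).resolve_left hxv
      simp only at hk
      cases b <;> simp only [cond_true, cond_false, hk, zero_add, ← zpow_neg] <;>
        rw [mul_left_comm, ← zpow_add] <;> congr 2 <;> ring
    · obtain rfl := Nat.eq_of_beq_eq_true hx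
      cases b <;> simp only [cond_true, cond_false] <;>
        rw [← mul_assoc, zpow_add] <;> simp only [zpow_one, zpow_neg_one] <;> congr 2 <;> ring

theorem row_sound {C : ℕ → ℤ} {rk : ℕ → ℕ} (d : Subgroup.center E) {k : ℕ} {R : Row}
    (h : rowOK T sr C rk k R = true) (hk : ∀ x, rk x ≤ k → X.V x = d ^ C x) :
    X.V R.v = d ^ C R.v := by
  rw [rowOK] at h
  split at h
  · simp at h
  rename_i l₀ hl₀
  obtain ⟨l, hl⟩ : ∃ l, l = cancel l₀ := ⟨_, rfl⟩
  rw [← hl] at h
  simp only [Bool.and_eq_true, List.all_eq_true, Bool.or_eq_true, decide_eq_true_eq] at h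
  obtain ⟨⟨⟨hall, -⟩, hc⟩, ht⟩ := h
  have hv := val_eq_of_known X (C := C) d R.v l fun p hp =>
    (hall p hp).imp Nat.eq_of_beq_eq_true fun e => hk _ (Nat.le_of_ble_eq_true e)
  rw [hl, val_cancel, eqn_sound X R hl₀, ← hl, ht] at hv
  rcases hc with hc | hc <;> rw [hc] at hv
  · rw [zpow_one, zero_sub, one_mul, zpow_neg, eq_comm, mul_inv_eq_one] at hv
    exact hv
  · rw [zpow_neg_one, show (0 : ℤ) - -1 * C R.v = C R.v by ring, eq_comm, inv_mul_eq_one] at hv
    exact hv

/-- All variables of small rank are the powers prescribed by the rows. -/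
theorem rows_sound {C : ℕ → ℤ} {rk : ℕ → ℕ} (d : Subgroup.center E)
    (h0 : ∀ x, rk x = 0 → X.V x = d ^ C x) :
    ∀ (l : List Row) (k : ℕ), rowsOK T sr C rk k l = true →
      (∀ x, rk x ≤ k → X.V x = d ^ C x) → (∀ x, k < rk x → rk x ≤ k + l.length → ∃ R ∈ l, R.v = x) →
      ∀ x, rk x ≤ k + l.length → X.V x = d ^ C x
  | [], k, _, hk, _ => fun x hx => hk x (by simpa using hx)
  | R :: l, k, h, hk, hcov => by
    rw [rowsOK, Bool.and_eq_true] at h
    have hR := row_sound X d h.1 hk
    have hrk : rk R.v = k + 1 := by
      have := h.1
      rw [rowOK] at this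
      split at this
      · simp at this
      · simp only [Bool.and_eq_true] at this
        exact Nat.eq_of_beq_eq_true this.1.1.2
    intro x hx
    refine rows_sound d h0 l (k + 1) h.2 (fun y hy => ?_) (fun y hy hy' => ?_) x
      (by rw [List.length_cons] at hx; omega)
    · rcases Nat.lt_or_ge k (rk y) with hlt | hle
      · obtain ⟨R', hR', rfl⟩ := hcov y hlt (by rw [List.length_cons]; omega)
        rcases List.mem_cons.1 hR' with rfl | hR'
        · exact hR
        · exfalso
          have key : ∀ (m : List Row) (j : ℕ), rowsOK T sr C rk j m = true → ∀ S ∈ m, j < rk S.v := by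
            intro m
            induction m with
            | nil => intro j _ S hS; simp at hS
            | cons S' m ih =>
              intro j hj S hS
              rw [rowsOK, Bool.and_eq_true] at hj
              rcases List.mem_cons.1 hS with rfl | hS
              · have := hj.1
                rw [rowOK] at this
                split at this
                · simp at this
                · simp only [Bool.and_eq_true] at this
                  rw [Nat.eq_of_beq_eq_true this.1.1.2]; omega
              · exact lt_trans (Nat.lt_succ_self j) (ih (j + 1) hj.2 S hS)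
          have := key l (k + 1) h.2 R' hR'
          omega
      · exact hk y hle
    · obtain ⟨R', hR', rfl⟩ := hcov y (by omega) (by rw [List.length_cons]; omega)
      rcases List.mem_cons.1 hR' with rfl | hR'
      · omega
      · exact ⟨R', hR', rfl⟩

end Cfsg.Agent.Chev.F4Two
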