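import Cfsg.Agent.Chev.F4Two.Bound
import Cfsg.Agent.Chev.F4Two.Facts

/-!
# Central extensions of the group presented by (R1), (R2) for F4 over two elements

The canonical lifts satisfy the relations modulo a central element of order dividing two.
-/

set_option autoImplicit false
set_option maxRecDepth 100000

namespace Cfsg.Agent.Chev.F4Two

open Cfsg.Lie Cfsg.Agent.ChevGrp Cfsg.Agent.CentralExt
open Cfsg.Agent.CentralExt.Laced (IsCentralMap lift_comm_eq)
open scoped commutatorElement

universe u v

/-- The pairs defining the lifts are as tabulated. -/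
def gaugeOK : Bool :=
  (gauge.all fun g => Nat.blt g.2.1 g.2.2 && Nat.blt g.2.2 48 && Nat.blt g.1 48 &&
    decide (tT g.2.1 g.2.2 = some [g.1]) &&
    decide (gauge.find? (fun h => Nat.beq h.1 g.1) = some g))

theorem gauge_ok : gaugeOK = true := by decide +kernel

/-- The tables of both orders of a pair agree. -/
def symmOK : Bool :=
  (List.range 48).all fun b => (List.range b).all fun a =>
    bif Nat.beq (chevF4.neg b) a then true else
    decide (oddTerms b a = oddTerms a b) && match oddTerms a b with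
      | [] => true
      | [_] => true
      | [x, y] => (Nat.blt x y && decide (tT x y = some []) && Nat.blt y 48) ||
          (Nat.blt y x && decide (tT y x = some []) && Nat.blt x 48)
      | _ => false

theorem symm_ok : symmOK = true := by decide +kernel

theorem decode_q (r : ℕ) (hr : r < 48) : qVar r = r := by
  rw [qVar, show Nat.blt r 48 = true from Nat.ble_eq_true_of_le hr, cond_true]

section Build

variable {F : Type u} [Field F] {E : Type v} [Group E] {G : Type*} [Group G]
  (S : Sys chevF4 F G) (π : E →* G)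

open scoped Classical in
/-- An element of the kernel as a central element. -/
noncomputable def mkC (hk : π.ker ≤ Subgroup.center E) (g : E) : Subgroup.center E :=
  if h : π g = 1 then ⟨g, hk h⟩ else 1

theorem mkC_val (hk : π.ker ≤ Subgroup.center E) {g : E} (h : π g = 1) :
    ((mkC π hk g : Subgroup.center E) : E) = g := by
  rw [mkC, dif_pos h]

theorem π_mkC (hk : π.ker ≤ Subgroup.center E) (g : E) : π (mkC π hk g : E) = 1 := by
  rw [mkC]
  split
  · assumption
  · simp

variable (hπ : Function.Surjective π)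

/-- Some lift of a root element. -/
noncomputable def lft (a : ℕ) : E := Function.surjInv hπ (S.x a 1)

/-- The canonical lift. -/
noncomputable def canon (t : ℕ) : E :=
  if t < 48 then
    match gauge.find? (fun g => Nat.beq g.1 t) with
    | some g => (lft S π hπ g.2.1)⁻¹ * (lft S π hπ g.2.2)⁻¹ * lft S π hπ g.2.1 * lft S π hπ g.2.2
    | none => lft S π hπ t
  else 1

end Build

section Main

variable {F : Type u} [Field F] {E : Type v} [Group E] {G : Type*} [Group G]
  (S : Sys chevF4 F G) (π : E →* G) (hπ : Function.Surjective π) (hk : π.ker ≤ Subgroup.center E)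
  (h2 : (2 : F) = 0) (hS : Rules chevF4 F)
include hπ hk h2 hS

theorem π_lft (a : ℕ) : π (lft S π hπ a) = S.x a 1 := Function.surjInv_eq hπ _

theorem π_canon {t : ℕ} (ht : t < 48) : π (canon S π hπ t) = S.x t 1 := by
  rw [canon, if_pos ht]
  split
  · rename_i g hg
    have hmem := List.mem_of_find?_eq_some hg
    have h1 : g.1 = t := Nat.eq_of_beq_eq_true (List.find?_some hg :)
    have h := gauge_ok
    simp only [gaugeOK, List.all_eq_true, Bool.and_eq_true, decide_eq_true_eq] at h
    obtain ⟨⟨⟨⟨hab, hb⟩, -⟩, hT⟩, -⟩ := h g hmem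
    have hr := x_rel S h2 hS (Nat.le_of_ble_eq_true hab) (Nat.le_of_ble_eq_true hb) hT
    simp only [map_mul, map_inv, π_lft S π hπ hk h2 hS]
    rw [List.map_cons, List.map_nil, List.prod_cons, List.prod_nil, mul_one, h1] at hr
    rw [mul_assoc ((S.x g.2.1 1)⁻¹ * (S.x g.2.2 1)⁻¹), hr]
    group
  · exact π_lft S π hπ hk h2 hS t

omit h2 hS in
theorem canon_out {t : ℕ} (ht : ¬ t < 48) : canon S π hπ t = 1 := by rw [canon, if_neg ht]

theorem exists_lifts :
    ∃ X : Lifts tT sR E, (∀ a < 48, π (X.L a) = S.x a 1) ∧ (∀ v, π (X.V v : E) = 1) ∧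
      ∀ g ∈ gauge, X.V (eVar g.2.1 g.2.2) = 1 := by
  classical
  have hlift : ∀ g : G, ∃ e, π e = g := hπ
  let N : ℕ → E := fun i => if h : i < 4 then Function.surjInv hπ (S.nI ⟨i, h⟩) else 1
  let L : ℕ → E := canon S π hπ
  let V : ℕ → Subgroup.center E := fun x =>
    if x < 48 then mkC π hk (L x * L x) else
    if x < 2352 then mkC π hk ((L ((x - 48) % 48) * L ((x - 48) / 48) *
      (((tT ((x - 48) / 48) ((x - 48) % 48)).getD []).map L).prod)⁻¹ *
        (L ((x - 48) / 48) * L ((x - 48) % 48))) else
    if x < 2544 then mkC π hk ((L (sR ((x - 2352) / 48) ((x - 2352) % 48)))⁻¹ *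
      (N ((x - 2352) / 48) * L ((x - 2352) % 48) * (N ((x - 2352) / 48))⁻¹)) else 1
  have hL : ∀ a < 48, π (L a) = S.x a 1 := fun a ha => π_canon S π hπ hk h2 hS ha
  have hT : ∀ a b t, a < b → b < 48 → tT a b = some t → ∀ k ∈ t, k < 48 := by
    intro a b t hab hb ht k hk'
    obtain ⟨len, hR⟩ := hS.root
    rcases tT_spec hab hb with ⟨-, h⟩ | ⟨hn, h⟩
    · rw [h] at ht; simp at ht
    · rw [h] at ht
      cases ht
      simp only [oddTerms, List.mem_map, List.mem_filter] at hk'
      obtain ⟨c, ⟨hc, -⟩, rfl⟩ := hk'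
      exact (hR.commTerms_vec b hb a (lt_trans hab hb) hab.ne (fun e => hn e.symm) c hc).1
  have hprod : ∀ t : List ℕ, (∀ k ∈ t, k < 48) →
      π ((t.map L).prod) = (t.map fun k => S.x k 1).prod := by
    intro t ht
    rw [map_list_prod, List.map_map]
    exact congrArg List.prod (List.map_congr_left fun k hk' => hL k (ht k hk'))
  have hrel : ∀ a b t, a < b → b < 48 → tT a b = some t →
      π ((L b * L a * (t.map L).prod)⁻¹ * (L a * L b)) = 1 := by
    intro a b t hab hb ht
    rw [map_mul, map_inv, map_mul, map_mul, map_mul, hprod t (hT a b t hab hb ht), hL a (lt_trans hab hb),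
      hL b hb, ← x_rel S h2 hS hab hb ht, inv_mul_cancel]
  have heV : ∀ a b t, a < b → b < 48 → tT a b = some t →
      (V (eVar a b) : E) = (L b * L a * (t.map L).prod)⁻¹ * (L a * L b) := by
    intro a b t hab hb ht
    have e : eVar a b = 48 + (48 * a + b) := rfl
    have h1 : (eVar a b - 48) / 48 = a := by rw [e]; omega
    have h3 : (eVar a b - 48) % 48 = b := by rw [e]; omega
    simp only [V]
    rw [if_neg (by rw [e]; omega), if_pos (by rw [e]; omega), h1, h3, ht, Option.getD_some,
      mkC_val π hk (hrel a b t hab hb ht)]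
  have hV1 : ∀ v, π (V v : E) = 1 := by
    intro v
    simp only [V]
    split
    · exact π_mkC π hk _
    split
    · exact π_mkC π hk _
    split
    · exact π_mkC π hk _
    · simp
  refine ⟨⟨L, N, V, ?_, ?_, ?_⟩, hL, hV1, ?_⟩
  · intro a
    by_cases ha : a < 48
    · rw [decode_q a ha]
      simp only [V]
      rw [if_pos ha, mkC_val π hk (by rw [map_mul, hL a ha, x_sq S h2 hS ha])]
    · have e : qVar a = a + 10000 := by
        rw [qVar]
        cases h : Nat.blt a 48
        · rfl
        · exact absurd (Nat.le_of_ble_eq_true h) ha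
      simp only [V, L]
      rw [canon_out S π hπ hk ha, e, if_neg (by omega), if_neg (by omega), if_neg (by omega)]
      simp
  · intro a b t hab hb ht
    rw [heV a b t hab hb ht, mul_inv_cancel_left]
  · intro i r hi hr
    have e : nVar i r = 2352 + (48 * i + r) := rfl
    have h1 : (nVar i r - 2352) / 48 = i := by rw [e]; omega
    have h3 : (nVar i r - 2352) % 48 = r := by rw [e]; omega
    have hs : sR i r < 48 := by
      obtain ⟨len, hR⟩ := hS.root
      rw [sR_eq ⟨i, hi⟩ ⟨r, hr⟩]
      exact hR.reflect_lt i hi r hr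
    simp only [V]
    rw [if_neg (by rw [e]; omega), if_neg (by rw [e]; omega), if_pos (by rw [e]; omega), h1, h3,
      mkC_val π hk, mul_inv_cancel_left]
    have hN : π (N i) = S.nI ⟨i, hi⟩ := by
      simp only [N]
      rw [dif_pos hi, Function.surjInv_eq hπ]
    rw [map_mul, map_mul, map_mul, map_inv, map_inv, hN, hL r hr, hL _ hs, x_conj S h2 hS hi hr,
      inv_mul_cancel]
  · intro g hg
    have h := gauge_ok
    simp only [gaugeOK, List.all_eq_true, Bool.and_eq_true, decide_eq_true_eq] at h
    obtain ⟨⟨⟨⟨hab, hb⟩, h1⟩, hT'⟩, hf⟩ := h g hg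
    have ha' := Nat.le_of_ble_eq_true hab
    have hb' := Nat.le_of_ble_eq_true hb
    refine Subtype.ext ?_
    show (V (eVar g.2.1 g.2.2) : E) = 1
    rw [heV _ _ _ ha' hb' hT', inv_mul_eq_one, List.map_cons, List.map_nil, List.prod_cons,
      List.prod_nil, mul_one]
    have hg1 : L g.1 = (lft S π hπ g.2.1)⁻¹ * (lft S π hπ g.2.2)⁻¹ * lft S π hπ g.2.1 * lft S π hπ g.2.2 := by
      simp only [L, canon]
      rw [if_pos (show g.1 < 48 from Nat.le_of_ble_eq_true h1), hf]
    have hc : IsCentralMap π := fun z hz x => Subgroup.mem_center_iff.1 (hk hz) x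
    have hcm : ⁅(L g.2.1)⁻¹, (L g.2.2)⁻¹⁆ = ⁅(lft S π hπ g.2.1)⁻¹, (lft S π hπ g.2.2)⁻¹⁆ :=
      lift_comm_eq hc (by rw [map_inv, map_inv, hL _ (lt_trans ha' hb'), π_lft S π hπ hk h2 hS])
        (by rw [map_inv, map_inv, hL _ hb', π_lft S π hπ hk h2 hS])
    simp only [commutatorElement_def, inv_inv] at hcm
    rw [hg1, ← hcm]
    group

/-- The relations hold modulo a central element of order dividing two in the kernel. -/
theorem exists_sys_mod [Fintype F] (hF : Fintype.card F = 2) :
    ∃ d : Subgroup.center E, d ^ 2 = 1 ∧ π (d : E) = 1 ∧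
      ∀ hn : (Subgroup.zpowers (d : E)).Normal,
        haveI := hn
        ∃ T : Sys chevF4 F (E ⧸ Subgroup.zpowers (d : E)), ∀ r < 48, ∀ t, ∃ y : E,
          T.x r t = QuotientGroup.mk y ∧ π y = S.x r t := by
  classical
  obtain ⟨X, hL, hV, hg⟩ := exists_lifts S π hπ hk h2 hS
  obtain ⟨hd2, hq, he⟩ := deviation_bound X hg
  obtain ⟨d, hd⟩ : ∃ d, d = X.V parVar := ⟨_, rfl⟩
  rw [← hd] at hd2 hq he
  refine ⟨d, hd2, hd ▸ hV _, fun hn => ?_⟩
  haveI := hn
  set Z := Subgroup.zpowers (d : E) with hZ
  have hmk : ∀ {x : Subgroup.center E}, x ∈ Subgroup.zpowers d →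
      (QuotientGroup.mk (x : E) : E ⧸ Z) = 1 := by
    intro x hx
    obtain ⟨j, rfl⟩ := Subgroup.mem_zpowers_iff.1 hx
    rw [QuotientGroup.eq_one_iff, Subgroup.coe_zpow]
    exact zpow_mem (Subgroup.mem_zpowers _) j
  let y : ℕ → E ⧸ Z := fun r => QuotientGroup.mk (X.L r)
  have hsq : ∀ r < 48, y r * y r = 1 := fun r hr => by
    simp only [y]
    rw [← QuotientGroup.mk_mul, X.sq, hmk (hq r hr)]
  have hrel : ∀ a b t, a < b → b < 48 → tT a b = some t → y a * y b = y b * y a * (t.map y).prod := by
    intro a b t hab hb ht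
    have e := congrArg (QuotientGroup.mk' Z) (X.rel a b t hab hb ht)
    rw [map_mul, map_mul, map_mul, map_mul, map_list_prod, List.map_map] at e
    rw [show (QuotientGroup.mk' Z) (X.V (eVar a b) : E) = 1 from hmk (he b hb a hab (by rw [ht]; rfl)),
      mul_one] at e
    exact e
  obtain ⟨len, hR⟩ := hS.root
  let x : ℕ → F → E ⧸ Z := fun r t => if t = 0 then 1 else y r
  have hdπ : π (d : E) = 1 := hd ▸ hV _
  let θ : E ⧸ Z →* GL chevF4.Idx F := QuotientGroup.lift Z (S.θ.comp π) (by
    intro g hg'
    obtain ⟨j, rfl⟩ := Subgroup.mem_zpowers_iff.1 hg'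
    rw [MonoidHom.mem_ker, MonoidHom.comp_apply, map_zpow, hdπ, one_zpow, map_one])
  have h01 := zero_or_one hF
  have h11 : (1 : F) + 1 = 0 := by linear_combination h2
  have hword0 : ∀ r s, r < 48 → s < 48 → s ≠ r → s ≠ chevF4.neg r → ∀ t u : F, (t = 0 ∨ u = 0) →
      ((chevF4.commWord F r s t u).map fun p => x p.1 p.2).prod = 1 := by
    intro r s hr hs h1 h3 t u htu
    refine List.prod_eq_one fun g hg' => ?_
    simp only [ChevalleyDatum.commWord, List.map_map, List.mem_map, Function.comp_apply] at hg'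
    obtain ⟨c, hc, rfl⟩ := hg'
    obtain ⟨-, hi, hj, -⟩ := hR.commTerms_vec r hr s hs h1 h3 c hc
    simp only [x]
    rw [if_pos]
    rcases htu with rfl | rfl
    · rw [neg_zero, zero_pow hi.ne', mul_zero, zero_mul]
    · rw [zero_pow hj.ne', mul_zero]
  have hword1 : ∀ r s, ((chevF4.commWord F r s 1 1).map fun p => x p.1 p.2).prod =
      ((oddTerms s r).map y).prod := by
    intro r s
    rw [ChevalleyDatum.commWord, List.map_map, oddTerms]
    generalize chevF4.commTerms r s = L
    induction L with
    | nil => rfl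
    | cons c L ih =>
      rw [List.map_cons, List.prod_cons, ih, List.filter_cons]
      simp only [Function.comp_apply, x]
      rw [cast_coeff h2, neg_one_eq h2, one_pow, one_pow, mul_one, mul_one]
      by_cases hz : c.2.1 % 2 = 0 <;> simp [hz]
  refine ⟨⟨x, θ, ?_, ?_, ?_⟩, fun r hr t => ?_⟩
  · intro r hr t
    rcases h01 t with rfl | rfl
    · simp only [x, if_true, map_one]
      rw [← S.θ_x r hr 0, S.x_zero hr, map_one]
    · simp only [x, if_neg one_ne_zero]
      show (((S.θ.comp π) (X.L r) : GL chevF4.Idx F) : Matrix chevF4.Idx chevF4.Idx F) = _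
      rw [MonoidHom.comp_apply, hL r hr, S.θ_x r hr 1]
  · intro r hr t u
    rcases h01 t with rfl | rfl <;> rcases h01 u with rfl | rfl <;> simp [x, h11, hsq r hr]
  · intro r hr s hs h1 h3 t u
    rcases h01 t with rfl | rfl
    · rw [hword0 r s hr hs h1 h3 0 u (Or.inl rfl)]
      simp [x]
    rcases h01 u with rfl | rfl
    · rw [hword0 r s hr hs h1 h3 1 0 (Or.inr rfl)]
      simp [x]
    rw [hword1]
    simp only [x, if_neg one_ne_zero]
    rcases Nat.lt_or_gt_of_ne h1 with hlt | hlt
    · rcases tT_spec hlt hr with ⟨hn', -⟩ | ⟨-, ht⟩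
      · exact absurd hn'.symm h3
      · exact hrel s r _ hlt hr ht
    · have hnn : chevF4.neg s ≠ r := fun e => h3 (by rw [← e, neg_neg_tab ⟨s, hs⟩])
      rcases tT_spec hlt hs with ⟨hn', -⟩ | ⟨-, ht⟩
      · exact absurd hn' hnn
      have hsy := symm_ok
      simp only [symmOK, List.all_eq_true, List.mem_range] at hsy
      have hsy' := hsy s hs r hlt
      cases hnb : Nat.beq (chevF4.neg s) r
      swap
      · exact absurd (Nat.eq_of_beq_eq_true hnb) hnn
      rw [hnb, cond_false, Bool.and_eq_true, decide_eq_true_eq] at hsy'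
      rw [hsy'.1]
      have hi : ((oddTerms r s).map y).prod * ((oddTerms r s).map y).prod = 1 := by
        have hm := hsy'.2
        have hb : ∀ k ∈ oddTerms r s, k < 48 := by
          intro k hk'
          simp only [oddTerms, List.mem_map, List.mem_filter] at hk'
          obtain ⟨c, ⟨hc, -⟩, rfl⟩ := hk'
          exact (hR.commTerms_vec s hs r hr h1.symm (fun e => hnn e.symm) c hc).1
        revert hm hb
        generalize oddTerms r s = W
        intro hm hb
        match W, hm with
        | [], _ => simp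
        | [a], _ => simp [hsq a (hb a (by simp))]
        | [a, b], hm =>
          have hcm : y a * y b = y b * y a := by
            simp only [Bool.or_eq_true, Bool.and_eq_true, decide_eq_true_eq] at hm
            rcases hm with ⟨⟨hab, hT⟩, hb'⟩ | ⟨⟨hab, hT⟩, hb'⟩
            · simpa using hrel a b [] (Nat.le_of_ble_eq_true hab) (Nat.le_of_ble_eq_true hb') hT
            · simpa using (hrel b a [] (Nat.le_of_ble_eq_true hab) (Nat.le_of_ble_eq_true hb') hT).symm
          simp only [List.map_cons, List.map_nil, List.prod_cons, List.prod_nil, mul_one]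
          calc y a * y b * (y a * y b) = y a * y b * (y b * y a) := by rw [hcm]
            _ = y a * (y b * y b) * y a := by group
            _ = 1 := by rw [hsq b (hb b (by simp)), mul_one, hsq a (hb a (by simp))]
        | _ :: _ :: _ :: _, hm => simp at hm
      rw [hrel r s _ hlt hs ht, mul_assoc, hi, mul_one]
  · rcases h01 t with rfl | rfl
    · exact ⟨1, by simp [x], by rw [map_one, S.x_zero hr]⟩
    · exact ⟨X.L r, if_neg one_ne_zero, hL r hr⟩

end Main

end Cfsg.Agent.Chev.F4Two
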